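import Cfsg.Agent.Lib.Leech.Trans
import Cfsg.Agent.Lib.Leech.Order
import Cfsg.Agent.Lib.Leech.Count
import Cfsg.Agent.Lib.Leech.Reach
import Cfsg.Agent.Lib.Leech.Center

/-!
# The stabiliser of a short vector has no normal 2-subgroup

If `T` is a 2-subgroup of the stabiliser in `Co0` of a vector of norm 32, normalised by that stabiliser,
then `T` is trivial.  First `T` lies in the monomial group (the monomial group has odd index in the
stabiliser), then the permutation part of `T` is trivial (multiple transitivity), and then an explicit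
conjugation by `ξ` kills the sign changes.
-/

set_option autoImplicit false
set_option linter.unusedSectionVars false

namespace Cfsg.Agent.Lib.Monster.Co2Core

open Cfsg Cfsg.Agent.Lib.Golay.Core Cfsg.Agent.Lib.Golay.Perm Cfsg.Agent.Lib.Golay.Stab
  Cfsg.Agent.Lib.Leech.Basic Cfsg.Agent.Lib.Leech.Even Cfsg.Agent.Lib.Leech.Lat Cfsg.Agent.Lib.Leech.Mon
  Cfsg.Agent.Lib.Leech.Packed Cfsg.Agent.Lib.Leech.Vec Cfsg.Agent.Lib.Leech.Xi
  Cfsg.Agent.Lib.Leech.Reach Cfsg.Agent.Lib.Leech.NF Cfsg.Agent.Lib.Leech.NFBase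
  Cfsg.Agent.Lib.Leech.Trans Cfsg.Agent.Lib.Leech.Order Cfsg.Agent.Lib.Leech.Count
open scoped Pointwise

instance finiteCo0 : Finite Co0 := Nat.finite_of_card_ne_zero (by rw [card_Co0]; norm_num)

/-! ### A general lemma -/

theorem le_of_not_dvd_index {Γ : Type*} [Group Γ] [Finite Γ] {p : ℕ} [hp : Fact p.Prime]
    (K H T : Subgroup Γ) (hTK : T ≤ K) (hT : IsPGroup p T)
    (hnorm : ∀ k ∈ K, ∀ t ∈ T, k * t * k⁻¹ ∈ T) (hidx : ¬ p ∣ (H.subgroupOf K).index) : T ≤ H := by
  have hT' : IsPGroup p (T.subgroupOf K) :=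
    hT.of_equiv (Subgroup.subgroupOfEquivOfLe hTK).symm
  have hc : ¬ p ∣ Nat.card (K ⧸ H.subgroupOf K) := hidx
  obtain ⟨a, ha⟩ := hT'.nonempty_fixed_point_of_prime_not_dvd_card (K ⧸ H.subgroupOf K) hc
  obtain ⟨k, rfl⟩ := QuotientGroup.mk_surjective a
  intro t ht
  have ht1 : (k : Γ) * t * (k : Γ)⁻¹ ∈ T := hnorm k k.2 t ht
  have hmem : (⟨(k : Γ) * t * (k : Γ)⁻¹, K.mul_mem (K.mul_mem k.2 (hTK ht)) (K.inv_mem k.2)⟩ : K) ∈
      T.subgroupOf K := ht1
  have h1 := ha ⟨_, hmem⟩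
  have h2 : ((⟨(k : Γ) * t * (k : Γ)⁻¹, K.mul_mem (K.mul_mem k.2 (hTK ht)) (K.inv_mem k.2)⟩ : K) * k : K)
      = (k * ⟨t, hTK ht⟩ : K) := by
    apply Subtype.ext
    simp [mul_assoc]
  have h3 : (QuotientGroup.mk (k * ⟨t, hTK ht⟩) : K ⧸ H.subgroupOf K) = QuotientGroup.mk k := by
    rw [← h2]
    exact h1
  have h4 := QuotientGroup.eq.mp h3.symm
  have h5 : k⁻¹ * (k * ⟨t, hTK ht⟩) = ⟨t, hTK ht⟩ := by group
  rw [h5] at h4
  exact h4

theorem card_subgroupOf_eq {Γ : Type*} [Group Γ] (A B : Subgroup Γ) :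
    Nat.card (A.subgroupOf B) = Nat.card (A ⊓ B : Subgroup Γ) :=
  Nat.card_congr
    { toFun := fun x => ⟨x.1.1, x.2, x.1.2⟩
      invFun := fun x => ⟨⟨x.1, x.2.2⟩, x.2.1⟩
      left_inv := fun _ => rfl
      right_inv := fun _ => rfl }

/-! ### Composition of monomial elements -/

theorem monG_mul (σ σ' : Equiv.Perm GolayPt) (hσ : σ ∈ M24) (hσ' : σ' ∈ M24) (c c' : Finset GolayPt)
    (hc : c ∈ Sup) (hc' : c' ∈ Sup) :
    monG σ hσ c hc * monG σ' hσ' c' hc' =
      monG (σ * σ') (M24.mul_mem hσ hσ') (symmDiff c (σ • c'))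
        (symmDiff_mem_Sup hc (perm_mem_supports hσ hc')) := by
  apply ext_smul
  intro v
  apply Subtype.ext
  funext i
  show signedPerm σ c (signedPerm σ' c' v) i = signedPerm (σ * σ') _ v i
  rw [signedPerm_apply, signedPerm_apply, signedPerm_apply]
  have h1 : (σ * σ').symm i = σ'.symm (σ.symm i) := rfl
  have h2 : i ∈ σ • c' ↔ σ.symm i ∈ c' := by
    rw [Finset.mem_smul_finset]
    constructor
    · rintro ⟨x, hx, rfl⟩
      have : σ.symm (σ • x) = x := by
        show σ.symm (σ x) = x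
        simp
      rwa [this]
    · intro h
      exact ⟨σ.symm i, h, by show σ (σ.symm i) = i; simp⟩
  rw [h1]
  by_cases h3 : i ∈ c <;> by_cases h4 : σ.symm i ∈ c' <;>
    simp [Finset.mem_symmDiff, h2, h3, h4]

theorem monG_congr {σ σ' : Equiv.Perm GolayPt} {hσ : σ ∈ M24} {hσ' : σ' ∈ M24} {c c' : Finset GolayPt}
    {hc : c ∈ Sup} {hc' : c' ∈ Sup} (h1 : σ = σ') (h2 : c = c') :
    monG σ hσ c hc = monG σ' hσ' c' hc' := by
  subst h1; subst h2; rfl

/-! ### The permutation part -/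

/-- The permutation part of a monomial element. -/
noncomputable def permOf (g : NN) : Equiv.Perm GolayPt := Classical.choose (presCross_eq_monG g.2)

theorem permOf_spec (g : NN) : ∃ (hσ : permOf g ∈ M24) (d : Finset GolayPt) (hd : d ∈ Sup),
    g.1 = monG (permOf g) hσ d hd := Classical.choose_spec (presCross_eq_monG g.2)

theorem permOf_eq {g : NN} {σ : Equiv.Perm GolayPt} {hσ : σ ∈ M24} {c : Finset GolayPt} {hc : c ∈ Sup}
    (h : g.1 = monG σ hσ c hc) : permOf g = σ := by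
  obtain ⟨h1, d, hd, h2⟩ := permOf_spec g
  exact (monG_inj (h2.symm.trans h)).1

/-- The permutation part as a homomorphism. -/
noncomputable def permHom : NN →* Equiv.Perm GolayPt :=
  MonoidHom.mk' permOf (by
    intro g g'
    obtain ⟨h1, d, hd, h2⟩ := permOf_spec g
    obtain ⟨h1', d', hd', h2'⟩ := permOf_spec g'
    have h3 : (g * g').1 = monG _ (M24.mul_mem h1 h1') _ (symmDiff_mem_Sup hd (perm_mem_supports h1 hd')) := by
      show g.1 * g'.1 = _
      rw [h2, h2', monG_mul]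
    exact permOf_eq h3)

@[simp] theorem permHom_apply (g : NN) : permHom g = permOf g := rfl

theorem permOf_mem (g : NN) : permOf g ∈ M24 := (permOf_spec g).1

theorem exists_map_four {p q r t p' q' r' t' : GolayPt} (h1 : p ≠ q) (h2 : p ≠ r) (h3 : p ≠ t) (h4 : q ≠ r)
    (h5 : q ≠ t) (h6 : r ≠ t)
    (h1' : p' ≠ q') (h2' : p' ≠ r') (h3' : p' ≠ t') (h4' : q' ≠ r') (h5' : q' ≠ t') (h6' : r' ≠ t') :
    ∃ σ ∈ M24, σ p = p' ∧ σ q = q' ∧ σ r = r' ∧ σ t = t' := by
  obtain ⟨σ, hσ, H⟩ := exists_map_tuple (k := 4) (by norm_num)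
    ⟨![p, q, r, t], by
      intro a b hab
      fin_cases a <;> fin_cases b <;> simp_all⟩
    ⟨![p', q', r', t'], by
      intro a b hab
      fin_cases a <;> fin_cases b <;> simp_all⟩
  exact ⟨σ, hσ, H 0, H 1, H 2, H 3⟩

/-! ### The vector -/

def nV0 : ℕ := 686053159114795289240674611757597332
def nE8 : ℕ := 686053159114795289240674611757597208
def nX1 : ℕ := 686053159114795289240674611757461908
def nX2 : ℕ := 686053159114795289240674611757470100
def nXV : ℕ := 686053159114795289240674611757462032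

def ptA : GolayPt := pt 0
def ptB : GolayPt := pt 1
def ptC : GolayPt := pt 2
def ptD : GolayPt := pt 3

theorem ptAB : ptA ≠ ptB := by decide +kernel
theorem ptAC : ptA ≠ ptC := by decide +kernel
theorem ptAD : ptA ≠ ptD := by decide +kernel
theorem ptBC : ptB ≠ ptC := by decide +kernel
theorem ptBD : ptB ≠ ptD := by decide +kernel
theorem ptCD : ptC ≠ ptD := by decide +kernel

theorem inL_V0 : inL nV0 = true := by decide +kernel

theorem mem_V0 : dec nV0 ∈ leechLattice := mem_of_inL inL_V0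

/-- The vector `4 e_A + 4 e_B`. -/
def v0 : L := ⟨dec nV0, mem_V0⟩

theorem v0_coe : (v0 : GolayPt → ℤ) = dec nV0 := rfl

theorem sqNorm_v0 : sqNorm (dec nV0) = 32 := by decide +kernel

theorem v0_A : dec nV0 ptA = 4 := by decide +kernel
theorem v0_B : dec nV0 ptB = 4 := by decide +kernel
theorem v0_other : ∀ i, i ≠ ptA → i ≠ ptB → dec nV0 i = 0 := by decide +kernel

/-- The coordinate values. -/
def V4 : Finset ℤ := {0, 4, -4}

theorem cnt_V4 : cnt V4 32 = 1104 := by decide +kernel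

theorem signedPerm_V4 (σ : Equiv.Perm GolayPt) (c : Finset GolayPt) {x : GolayPt → ℤ}
    (hx : ∀ i, x i ∈ V4) (i : GolayPt) : signedPerm σ c x i ∈ V4 := by
  rw [signedPerm_apply]
  have h := hx (σ.symm i)
  simp only [V4, Finset.mem_insert, Finset.mem_singleton] at h ⊢
  split_ifs <;> omega

theorem NN_smul_V4 {g : Co0} (hg : g ∈ NN) {x : L} (hx : ∀ i, (x : GolayPt → ℤ) i ∈ V4) (i : GolayPt) :
    ((g • x : L) : GolayPt → ℤ) i ∈ V4 := by
  obtain ⟨σ, hσ, d, hd, rfl⟩ := presCross_eq_monG hg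
  rw [monG_smul]
  exact signedPerm_V4 σ d hx i

theorem V0_V4 : ∀ i, dec nV0 i ∈ V4 := by decide +kernel

theorem not_B32 : dec nB32 (pt 0) ∉ V4 := by decide +kernel
theorem not_C32 : dec nC32 (pt 0) ∉ V4 := by decide +kernel

theorem nrel_of_V4 {x : GolayPt → ℤ} (hx : x ∈ leechLattice) (hn : sqNorm x = 32) (hV : ∀ i, x i ∈ V4) :
    NRel x (dec nA32) := by
  rcases nf32 hx hn with h | h | h
  · exact h
  · exfalso
    obtain ⟨hx', g, hg, h1⟩ := h
    apply not_B32
    rw [← h1]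
    exact NN_smul_V4 hg hV _
  · exfalso
    obtain ⟨hx', g, hg, h1⟩ := h
    apply not_C32
    rw [← h1]
    exact NN_smul_V4 hg hV _

theorem orbit_v0 : MulAction.orbit NN v0 =
    {w : L | (∀ i, (w : GolayPt → ℤ) i ∈ V4) ∧ sqNorm (w : GolayPt → ℤ) = 32} := by
  ext w
  simp only [MulAction.mem_orbit_iff, Set.mem_ofPred_eq]
  constructor
  · rintro ⟨⟨g, hg⟩, rfl⟩
    refine ⟨NN_smul_V4 hg V0_V4, ?_⟩
    show sqNorm ((g • v0 : L) : GolayPt → ℤ) = 32
    rw [smul_sqNorm]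
    exact sqNorm_v0
  · rintro ⟨h1, h2⟩
    have h3 := nrel_of_V4 w.2 h2 h1
    have h4 := nrel_of_V4 mem_V0 sqNorm_v0 V0_V4
    have h5 : NRel v0.1 w.1 := h4.trans h3.symm
    obtain ⟨g, hg, h6⟩ := rel_iff.1 h5
    exact ⟨⟨g, hg⟩, h6⟩

theorem ncard_orbit_v0 : (MulAction.orbit NN v0).ncard = 1104 := by
  rw [orbit_v0, ← cnt_V4]
  have h := ncard_eq V4 (by decide) (by decide) 32 (by norm_num)
  rw [← h, ← Set.ncard_image_of_injective _ Subtype.val_injective]
  congr 1
  ext y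
  simp only [Set.mem_image, Set.mem_ofPred_eq]
  constructor
  · rintro ⟨v, ⟨h1, h2⟩, rfl⟩
    exact ⟨v.2, h1, by simpa using h2⟩
  · rintro ⟨h1, h2, h3⟩
    exact ⟨⟨y, h1⟩, ⟨h2, by simpa using h3⟩, rfl⟩

theorem card_stabNN : Nat.card (MulAction.stabilizer NN v0) = 908328960 := by
  have h1 := Subgroup.card_mul_index (MulAction.stabilizer NN v0)
  rw [MulAction.index_stabilizer, ncard_orbit_v0, card_NN] at h1
  exact Nat.eq_of_mul_eq_mul_right (by norm_num : 0 < 1104) (h1.trans (by norm_num))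

/-- The stabiliser of `v0`. -/
abbrev St : Subgroup Co0 := MulAction.stabilizer Co0 v0

theorem card_St : Nat.card St = 42305421312000 := card_stab32 sqNorm_v0

theorem index_NN_St : (NN.subgroupOf St).index = 46575 := by
  have h1 : (MulAction.stabilizer NN v0) = St.subgroupOf NN := by
    ext x
    rfl
  have h2 : Nat.card (St ⊓ NN : Subgroup Co0) = 908328960 := by
    rw [← card_subgroupOf_eq, ← h1, card_stabNN]
  have h3 : Nat.card (NN.subgroupOf St) = 908328960 := by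
    rw [card_subgroupOf_eq, inf_comm, h2]
  have h4 := Subgroup.card_mul_index (NN.subgroupOf St)
  rw [h3, card_St] at h4
  exact Nat.eq_of_mul_eq_mul_left (by norm_num : 0 < 908328960) (h4.trans (by norm_num))

/-- **Step 1.** -/
theorem le_NN {T : Subgroup Co0} (hTL : T ≤ St) (hT : IsPGroup 2 T)
    (hnorm : ∀ l ∈ St, ∀ t ∈ T, l * t * l⁻¹ ∈ T) : T ≤ NN := by
  have := Fact.mk Nat.prime_two
  refine le_of_not_dvd_index St NN T hTL hT hnorm ?_
  rw [index_NN_St]
  norm_num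

/-! ### Step 2: the permutation part -/

theorem monG_fix_mem_St {τ : Equiv.Perm GolayPt} (hτ : τ ∈ M24) (h1 : τ ptA = ptA) (h2 : τ ptB = ptB) :
    monG τ hτ ∅ empty_mem_Sup ∈ St := by
  show monG τ hτ ∅ empty_mem_Sup • v0 = v0
  apply Subtype.ext
  funext i
  show signedPerm τ ∅ (dec nV0) i = dec nV0 i
  rw [signedPerm_apply, if_neg (by simp)]
  by_cases hA : i = ptA
  · have : τ.symm i = ptA := by rw [hA, Equiv.symm_apply_eq, h1]
    rw [this, hA]
  by_cases hB : i = ptB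
  · have : τ.symm i = ptB := by rw [hB, Equiv.symm_apply_eq, h2]
    rw [this, hB]
  have h3 : τ.symm i ≠ ptA := by
    intro h; apply hA; rw [← h1, ← h]; simp
  have h4 : τ.symm i ≠ ptB := by
    intro h; apply hB; rw [← h2, ← h]; simp
  rw [v0_other _ h3 h4, v0_other _ hA hB]

theorem monG_St_apply {σ : Equiv.Perm GolayPt} {hσ : σ ∈ M24} {c : Finset GolayPt} {hc : c ∈ Sup}
    (h : monG σ hσ c hc ∈ St) (i : GolayPt) :
    (if i ∈ c then -dec nV0 (σ.symm i) else dec nV0 (σ.symm i)) = dec nV0 i := by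
  have h1 : monG σ hσ c hc • v0 = v0 := h
  have h2 := congrFun (congrArg Subtype.val h1) i
  exact h2

theorem monG_St_ne {σ : Equiv.Perm GolayPt} {hσ : σ ∈ M24} {c : Finset GolayPt} {hc : c ∈ Sup}
    (h : monG σ hσ c hc ∈ St) {p : GolayPt} (h1 : p ≠ ptA) (h2 : p ≠ ptB) : σ p ≠ ptA ∧ σ p ≠ ptB := by
  have h3 := monG_St_apply h (σ p)
  rw [Equiv.symm_apply_apply, v0_other p h1 h2] at h3
  have h4 : dec nV0 (σ p) = 0 := by
    rw [← h3]; split_ifs <;> simp
  constructor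
  · intro h5; rw [h5, v0_A] at h4; norm_num at h4
  · intro h5; rw [h5, v0_B] at h4; norm_num at h4

section Step2

variable {T : Subgroup Co0} (hTL : T ≤ St) (hT : IsPGroup 2 T)
  (hnorm : ∀ l ∈ St, ∀ t ∈ T, l * t * l⁻¹ ∈ T)
include hTL hT hnorm

/-- The permutation part of `T`. -/
theorem perm_fix {t : Co0} (ht : t ∈ T) {σ : Equiv.Perm GolayPt} {hσ : σ ∈ M24} {c : Finset GolayPt}
    {hc : c ∈ Sup} (h : t = monG σ hσ c hc) {p : GolayPt} (hpA : p ≠ ptA) (hpB : p ≠ ptB) : σ p = p := by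
  classical
  have hTN := le_NN hTL hT hnorm
  by_contra hne
  set S : Subgroup (Equiv.Perm GolayPt) := (T.subgroupOf NN).map permHom with hS
  have hT' : IsPGroup 2 (T.subgroupOf NN) :=
    hT.of_equiv (Subgroup.subgroupOfEquivOfLe hTN).symm
  have hS2 : IsPGroup 2 S := hT'.map permHom
  -- Elements of S
  have hSmem : ∀ τ ∈ S, τ ∈ M24 ∧ ∀ x, x ≠ ptA → x ≠ ptB → τ x ≠ ptA ∧ τ x ≠ ptB := by
    rintro τ ⟨⟨u, huN⟩, hu, rfl⟩
    obtain ⟨h1, d, hd, h2⟩ := permOf_spec ⟨u, huN⟩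
    refine ⟨h1, fun x h3 h4 => ?_⟩
    have h5 : monG _ h1 d hd ∈ St := by
      rw [← h2]
      exact hTL hu
    exact monG_St_ne h5 h3 h4
  set q := σ p with hq
  have hqAB : q ≠ ptA ∧ q ≠ ptB := by
    have h0 : monG σ hσ c hc ∈ St := h ▸ hTL ht
    exact monG_St_ne h0 hpA hpB
  have hσS : σ ∈ S := by
    refine ⟨⟨t, hTN ht⟩, ht, ?_⟩
    exact permOf_eq (g := ⟨t, hTN ht⟩) h
  -- The orbit
  have horb : MulAction.orbit S p = ((Finset.univ.erase ptA).erase ptB : Finset GolayPt) := by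
    ext r
    simp only [MulAction.mem_orbit_iff, Finset.coe_erase, Finset.coe_univ, Set.mem_sdiff, Set.mem_univ,
      Set.mem_singleton_iff, true_and]
    constructor
    · rintro ⟨⟨τ, hτ⟩, rfl⟩
      exact ⟨(hSmem τ hτ).2 p hpA hpB |>.1, (hSmem τ hτ).2 p hpA hpB |>.2⟩
    · rintro ⟨hrA, hrB⟩
      by_cases hrp : r = p
      · exact ⟨1, by rw [hrp]; rfl⟩
      obtain ⟨τ, hτ, h1, h2, h3, h4⟩ := exists_map_four (p := ptA) (q := ptB) (r := p) (t := q)
        (p' := ptA) (q' := ptB) (r' := p) (t' := r)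
        ptAB hpA.symm hqAB.1.symm hpB.symm hqAB.2.symm (fun h => hne h.symm)
        ptAB hpA.symm (fun h => hrA h.symm) hpB.symm (fun h => hrB h.symm) (fun h => hrp h.symm)
      have hτ' : monG τ hτ ∅ empty_mem_Sup ∈ St := monG_fix_mem_St hτ h1 h2
      have ht' := hnorm _ hτ' t ht
      refine ⟨⟨τ * σ * τ⁻¹, ?_⟩, ?_⟩
      · refine ⟨⟨_, hTN ht'⟩, ht', ?_⟩
        show permHom _ = _
        have e1 : (⟨monG τ hτ ∅ empty_mem_Sup * t * (monG τ hτ ∅ empty_mem_Sup)⁻¹, hTN ht'⟩ : NN) =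
            ⟨monG τ hτ ∅ empty_mem_Sup, monG_mem_NN _ _ _ _⟩ * ⟨t, hTN ht⟩ *
              ⟨monG τ hτ ∅ empty_mem_Sup, monG_mem_NN _ _ _ _⟩⁻¹ := rfl
        rw [e1, map_mul, map_mul, map_inv]
        simp only [permHom_apply]
        have e3 : permOf ⟨monG τ hτ ∅ empty_mem_Sup, monG_mem_NN _ _ _ _⟩ = τ :=
          permOf_eq (σ := τ) (hσ := hτ) (c := ∅) (hc := empty_mem_Sup) rfl
        rw [e3, permOf_eq (g := ⟨t, hTN ht⟩) h]
      · show (τ * σ * τ⁻¹) p = r
        have e2 : τ⁻¹ p = p := by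
          rw [Equiv.Perm.inv_eq_iff_eq, h3]
        show τ (σ (τ⁻¹ p)) = r
        rw [e2, ← hq, h4]
  obtain ⟨n, hn⟩ := hS2.card_orbit p
  rw [horb] at hn
  have h22 : ((Finset.univ.erase ptA).erase ptB : Finset GolayPt).card = 22 := by decide +kernel
  rw [Nat.card_coe_set_eq, Set.ncard_coe_finset, h22] at hn
  have h5 : n ≤ 4 ∨ 5 ≤ n := by omega
  rcases h5 with h5 | h5
  · interval_cases n <;> omega
  · have : 2 ^ 5 ≤ 2 ^ n := Nat.pow_le_pow_right (by norm_num) h5
    omega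

/-- No element of the group of the code moves just two points. -/
theorem perm_one {t : Co0} (ht : t ∈ T) {σ : Equiv.Perm GolayPt} {hσ : σ ∈ M24} {c : Finset GolayPt}
    {hc : c ∈ Sup} (h : t = monG σ hσ c hc) : σ = 1 := by
  classical
  have hfix : ∀ p, p ≠ ptA → p ≠ ptB → σ p = p := fun p h1 h2 => perm_fix hTL hT hnorm ht h h1 h2
  have hA' : σ ptA = ptA ∨ σ ptA = ptB := by
    by_contra hcon
    push Not at hcon
    have h1 := hfix (σ ptA) hcon.1 hcon.2
    have h2 := σ.injective h1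
    exact hcon.1 (by rw [h2])
  rcases hA' with hA | hA
  · have hB : σ ptB = ptB := by
      by_contra hcon
      have h1 : σ ptB ≠ ptA := by
        intro h2
        rw [← hA] at h2
        exact ptAB (σ.injective h2).symm
      have h2 := hfix (σ ptB) h1 hcon
      exact hcon (σ.injective h2)
    apply Equiv.ext
    intro x
    by_cases h1 : x = ptA
    · rw [h1, hA]; rfl
    by_cases h2 : x = ptB
    · rw [h2, hB]; rfl
    rw [hfix x h1 h2]; rfl
  · exfalso
    have hB : σ ptB = ptA := by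
      by_contra hcon
      have h1 : σ ptB ≠ ptB := by
        intro h2
        exact ptAB (σ.injective (h2.trans hA.symm)).symm
      have h2 := hfix (σ ptB) hcon h1
      exact h1 (σ.injective h2)
    obtain ⟨m, hm, hm1, hm2⟩ := Cfsg.Agent.Lib.Leech.Center.code_separates 1 (by norm_num) 0 (by norm_num)
      (by norm_num)
    have hc0 : setOf (code m) ∈ Sup := setOf_code_mem hm
    have hAm : ptA ∈ setOf (code m) := by
      rw [mem_setOf, show ptA = pt 0 from rfl, idx_pt (by norm_num)]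
      exact hm1
    have hBm : ptB ∉ setOf (code m) := by
      rw [mem_setOf, show ptB = pt 1 from rfl, idx_pt (by norm_num)]
      simp [hm2]
    have hsymm := symmDiff_mem_Sup hc0 (perm_mem_supports hσ hc0)
    have hset : symmDiff (setOf (code m)) (σ • setOf (code m)) = {ptA, ptB} := by
      ext x
      have hmem : x ∈ σ • setOf (code m) ↔ σ.symm x ∈ setOf (code m) := by
        rw [Finset.mem_smul_finset]
        constructor
        · rintro ⟨y, hy, rfl⟩
          have : σ.symm (σ • y) = y := by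
            show σ.symm (σ y) = y
            simp
          rwa [this]
        · intro h1
          exact ⟨σ.symm x, h1, by show σ (σ.symm x) = x; simp⟩
      simp only [Finset.mem_symmDiff, hmem, Finset.mem_insert, Finset.mem_singleton]
      by_cases h1 : x = ptA
      · have e : σ.symm x = ptB := by rw [h1, Equiv.symm_apply_eq, hB]
        rw [e, h1]
        simp [hAm, hBm]
      by_cases h2 : x = ptB
      · have e : σ.symm x = ptA := by rw [h2, Equiv.symm_apply_eq, hA]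
        rw [e, h2]
        simp [hAm, hBm]
      have e : σ.symm x = x := by rw [Equiv.symm_apply_eq, hfix x h1 h2]
      rw [e]
      simp [h1, h2]
    rw [hset] at hsymm
    have h3 := card_Sup_cases hsymm
    have h4 : ({ptA, ptB} : Finset GolayPt).card = 2 := Finset.card_pair ptAB
    rw [h4] at h3
    omega

end Step2

/-! ### Step 3: the sign changes -/

theorem nX_other : ∀ i, i ≠ ptA → i ≠ ptB → i ≠ ptC → i ≠ ptD → dec nX1 i = 0 ∧ dec nX2 i = 0 := by
  decide +kernel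

theorem nX_A : dec nX1 ptA = 4 ∧ dec nX2 ptA = 4 := by decide +kernel
theorem nX_B : dec nX1 ptB = -4 ∧ dec nX2 ptB = -4 := by decide +kernel
theorem nX_C : dec nX1 ptC = -4 ∧ dec nX2 ptC = 4 := by decide +kernel
theorem nX_D : dec nX1 ptD = -4 ∧ dec nX2 ptD = -4 := by decide +kernel

theorem nXV_C : dec nXV ptC = -4 := by decide +kernel
theorem nXV_D : dec nXV ptD = -4 := by decide +kernel
theorem nXV_other : ∀ i, i ≠ ptC → i ≠ ptD → dec nXV i = 0 := by decide +kernel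

theorem e8_eq : e8 ptA = dec nE8 := by decide +kernel

theorem xi_e8 : xiF (dec nE8) = dec nX1 := xiF_eq_of_check (by decide +kernel)
theorem xi_X2 : xiF (dec nX2) = dec nX2 := xiF_eq_of_check (by decide +kernel)
theorem xi_V0 : xiF (dec nV0) = dec nXV := xiF_eq_of_check (by decide +kernel)

theorem flip_X {c : Finset GolayPt} (hA : ptA ∉ c) (hB : ptB ∉ c) (hC : ptC ∈ c) (hD : ptD ∉ c) :
    signedPerm 1 c (dec nX1) = dec nX2 := by
  funext i
  rw [signedPerm_apply]
  have e : (1 : Equiv.Perm GolayPt).symm i = i := rfl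
  rw [e]
  by_cases h1 : i = ptA
  · rw [h1, if_neg hA, nX_A.1, nX_A.2]
  by_cases h2 : i = ptB
  · rw [h2, if_neg hB, nX_B.1, nX_B.2]
  by_cases h3 : i = ptC
  · rw [h3, if_pos hC, nX_C.1, nX_C.2]; norm_num
  by_cases h4 : i = ptD
  · rw [h4, if_neg hD, nX_D.1, nX_D.2]
  obtain ⟨h5, h6⟩ := nX_other i h1 h2 h3 h4
  rw [h5, h6]
  split_ifs <;> simp

section Step3

variable {T : Subgroup Co0} (hTL : T ≤ St) (hT : IsPGroup 2 T)
  (hnorm : ∀ l ∈ St, ∀ t ∈ T, l * t * l⁻¹ ∈ T)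
include hTL hT hnorm

theorem sign_empty {t : Co0} (ht : t ∈ T) {c : Finset GolayPt} {hc : c ∈ Sup}
    (h : t = monG 1 M24.one_mem c hc) : c = ∅ := by
  classical
  by_contra hne
  obtain ⟨p, hp⟩ := Finset.nonempty_iff_ne_empty.mpr hne
  have hTN := le_NN hTL hT hnorm
  have h0 : monG 1 M24.one_mem c hc ∈ St := h ▸ hTL ht
  have hsymm1 : ∀ i, (1 : Equiv.Perm GolayPt).symm i = i := fun _ => rfl
  have hA : ptA ∉ c := by
    intro hm
    have h1 := monG_St_apply h0 ptA
    rw [if_pos hm, hsymm1, v0_A] at h1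
    norm_num at h1
  have hB : ptB ∉ c := by
    intro hm
    have h1 := monG_St_apply h0 ptB
    rw [if_pos hm, hsymm1, v0_B] at h1
    norm_num at h1
  have hpA : p ≠ ptA := fun h1 => hA (h1 ▸ hp)
  have hpB : p ≠ ptB := fun h1 => hB (h1 ▸ hp)
  obtain ⟨q, hq, hqA, hqB⟩ : ∃ q, q ∉ c ∧ q ≠ ptA ∧ q ≠ ptB := by
    by_contra hcon
    push Not at hcon
    have h1 : (Finset.univ : Finset GolayPt) ⊆ insert ptA (insert ptB c) := by
      intro x _
      simp only [Finset.mem_insert]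
      by_cases hx : x ∈ c
      · exact Or.inr (Or.inr hx)
      by_cases hx2 : x = ptA
      · exact Or.inl hx2
      exact Or.inr (Or.inl (hcon x hx hx2))
    have h2 := Finset.card_le_card h1
    have h3 : (Finset.univ : Finset GolayPt).card = 24 := card_golayPt
    have h4 : (insert ptA (insert ptB c)).card ≤ c.card + 2 := by
      refine (Finset.card_insert_le _ _).trans ?_
      have := Finset.card_insert_le ptB c
      omega
    have h5 := card_Sup_cases hc
    have h6 : c.card ≠ 24 := by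
      intro h7
      have h8 : c = Finset.univ := Finset.eq_univ_of_card c (by rw [h7]; exact card_golayPt.symm)
      exact hA (h8 ▸ Finset.mem_univ _)
    omega
  have hpq : p ≠ q := fun h1 => hq (h1 ▸ hp)
  obtain ⟨τ, hτ, h1, h2, h3, h4⟩ := exists_map_four (p := ptA) (q := ptB) (r := p) (t := q)
    (p' := ptA) (q' := ptB) (r' := ptC) (t' := ptD)
    ptAB hpA.symm hqA.symm hpB.symm hqB.symm hpq
    ptAB ptAC ptAD ptBC ptBD ptCD
  set τh : Co0 := monG τ hτ ∅ empty_mem_Sup with hτh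
  have hτ' : τh ∈ St := monG_fix_mem_St hτ h1 h2
  have ht1 := hnorm _ hτ' t ht
  set c1 : Finset GolayPt := τ • c with hc1
  have hc1S : c1 ∈ Sup := perm_mem_supports hτ hc
  have hmem : ∀ x y, τ x = y → (y ∈ c1 ↔ x ∈ c) := by
    intro x y hxy
    rw [hc1, Finset.mem_smul_finset]
    constructor
    · rintro ⟨u, hu, hu2⟩
      have : u = x := τ.injective (hu2.trans hxy.symm)
      rwa [← this]
    · intro hx
      exact ⟨x, hx, hxy⟩
  have hc1A : ptA ∉ c1 := fun h5 => hA ((hmem _ _ h1).mp h5)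
  have hc1B : ptB ∉ c1 := fun h5 => hB ((hmem _ _ h2).mp h5)
  have hc1C : ptC ∈ c1 := (hmem _ _ h3).mpr hp
  have hc1D : ptD ∉ c1 := fun h5 => hq ((hmem _ _ h4).mp h5)
  have ht1e : τh * t * τh⁻¹ = monG 1 M24.one_mem c1 hc1S := by
    rw [h, hτh, monG_inv_eq, monG_mul, monG_mul]
    apply monG_congr
    · group
    · ext x
      simp [Finset.mem_symmDiff, hc1]
  set t1 : Co0 := τh * t * τh⁻¹ with ht1def
  obtain ⟨σ2, hσ2, hs1, hs2⟩ := exists_map_two ptCD ptAB
  set m : Co0 := monG σ2 hσ2 Finset.univ univ_mem_Sup with hm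
  have hmNN : m ∈ NN := monG_mem_NN _ _ _ _
  have hy : m * xiG ∈ St := by
    show (m * xiG) • v0 = v0
    apply Subtype.ext
    show signedPerm σ2 Finset.univ (xiF (dec nV0)) = dec nV0
    rw [xi_V0]
    funext i
    rw [signedPerm_apply, if_pos (Finset.mem_univ _)]
    by_cases hiA : i = ptA
    · have e : σ2.symm i = ptC := by rw [hiA, Equiv.symm_apply_eq, hs1]
      rw [e, hiA, nXV_C, v0_A]; norm_num
    by_cases hiB : i = ptB
    · have e : σ2.symm i = ptD := by rw [hiB, Equiv.symm_apply_eq, hs2]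
      rw [e, hiB, nXV_D, v0_B]; norm_num
    have e1 : σ2.symm i ≠ ptC := by
      intro h5; apply hiA; rw [← hs1, ← h5]; simp
    have e2 : σ2.symm i ≠ ptD := by
      intro h5; apply hiB; rw [← hs2, ← h5]; simp
    rw [nXV_other _ e1 e2, v0_other _ hiA hiB]; norm_num
  have ht2 := hnorm _ hy t1 ht1
  set t2 : Co0 := (m * xiG) * t1 * (m * xiG)⁻¹ with ht2def
  -- the conjugate `w`
  have hw : m⁻¹ * t2 * m = xiG * t1 * xiG := by
    have hxi : xiG⁻¹ = xiG := inv_eq_of_mul_eq_one_left xiG_sq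
    rw [ht2def, mul_inv_rev, hxi]
    group
  have hwNN : m⁻¹ * t2 * m ∈ NN := NN.mul_mem (NN.mul_mem (NN.inv_mem hmNN) (hTN ht2)) hmNN
  obtain ⟨h5, d, hd, h6⟩ := permOf_spec ⟨_, hwNN⟩
  have hperm : permOf ⟨_, hwNN⟩ = 1 := by
    obtain ⟨h7, d2, hd2, h8⟩ := permOf_spec ⟨t2, hTN ht2⟩
    have h9 := perm_one hTL hT hnorm ht2 h8
    have e1 : (⟨m⁻¹ * t2 * m, hwNN⟩ : NN) = (⟨m, hmNN⟩ : NN)⁻¹ * ⟨t2, hTN ht2⟩ * ⟨m, hmNN⟩ := rfl
    have e2 : permHom (⟨m⁻¹ * t2 * m, hwNN⟩ : NN) = 1 := by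
      rw [e1, map_mul, map_mul, map_inv]
      show (permOf ⟨m, hmNN⟩)⁻¹ * permOf ⟨t2, hTN ht2⟩ * permOf ⟨m, hmNN⟩ = 1
      rw [h9]
      group
    exact e2
  -- evaluate at `8 e_A`
  have hval1 : ((m⁻¹ * t2 * m) • e8L ptA : L).1 ptB = 0 := by
    have e0 : ((⟨m⁻¹ * t2 * m, hwNN⟩ : NN) : Co0) = m⁻¹ * t2 * m := rfl
    rw [← e0, h6, monG_smul, signedPerm_apply, hperm]
    have e1 : (1 : Equiv.Perm GolayPt).symm ptB = ptB := rfl
    rw [e1]
    have e2 : (e8L ptA : L).1 ptB = 0 := by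
      show (Pi.single ptA 8 : GolayPt → ℤ) ptB = 0
      rw [Pi.single_eq_of_ne ptAB.symm]
    rw [e2]
    split_ifs <;> simp
  have hval2 : ((xiG * t1 * xiG) • e8L ptA : L).1 ptB = -4 := by
    have e1 : ((xiG • e8L ptA : L) : GolayPt → ℤ) = dec nX1 := by
      show xiF (e8 ptA) = dec nX1
      rw [e8_eq, xi_e8]
    have e2 : ((t1 • (xiG • e8L ptA) : L) : GolayPt → ℤ) = dec nX2 := by
      rw [ht1e, monG_smul, e1]
      exact flip_X hc1A hc1B hc1C hc1D
    have e3 : (((xiG * t1 * xiG) • e8L ptA : L) : GolayPt → ℤ) = dec nX2 := by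
      show xiF ((t1 • (xiG • e8L ptA) : L) : GolayPt → ℤ) = dec nX2
      rw [e2, xi_X2]
    rw [e3, nX_B.2]
  rw [hw] at hval1
  rw [hval1] at hval2
  norm_num at hval2

/-- **The stabiliser of the vector has no normal 2-subgroup.** -/
theorem eq_bot_St : T = ⊥ := by
  rw [eq_bot_iff]
  intro t ht
  rw [Subgroup.mem_bot]
  have hTN := le_NN hTL hT hnorm
  obtain ⟨h1, d, hd, e⟩ := permOf_spec ⟨t, hTN ht⟩
  have h2 := perm_one hTL hT hnorm ht e
  have h3 : t = monG 1 M24.one_mem d hd := e.trans (monG_congr h2 rfl)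
  have h4 := sign_empty hTL hT hnorm ht h3
  subst h4
  rw [h3]
  apply ext_smul
  intro v
  apply Subtype.ext
  funext i
  show signedPerm 1 ∅ v i = v.1 i
  rw [signedPerm_apply]
  simp
  rfl

end Step3

/-- **The stabiliser of a vector of norm 32 has no normal 2-subgroup.** -/
theorem eq_bot_of_norm32 {v : L} (hv : sqNorm (v : GolayPt → ℤ) = 32) {T : Subgroup Co0}
    (hTL : T ≤ MulAction.stabilizer Co0 v) (hT : IsPGroup 2 T)
    (hnorm : ∀ l ∈ MulAction.stabilizer Co0 v, ∀ t ∈ T, l * t * l⁻¹ ∈ T) : T = ⊥ := by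
  obtain ⟨g, hg⟩ := trans32 v v0 hv sqNorm_v0
  set T' : Subgroup Co0 := T.map (MulAut.conj g).toMonoidHom with hT'
  have hconj : ∀ x, x ∈ T' ↔ g⁻¹ * x * g ∈ T := by
    intro x
    rw [hT', Subgroup.mem_map]
    constructor
    · rintro ⟨y, hy, rfl⟩
      simpa [mul_assoc] using hy
    · intro h
      exact ⟨_, h, by simp [mul_assoc]⟩
  have h1 : T' ≤ St := by
    intro x hx
    have h2 := hTL ((hconj x).mp hx)
    have h3 : (g⁻¹ * x * g) • v = v := h2
    show x • v0 = v0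
    have h4 : x • (g • v) = g • v := by
      have h5 : (g * (g⁻¹ * x * g)) • v = g • v := by rw [mul_smul, h3]
      have h6 : g * (g⁻¹ * x * g) = x * g := by group
      rw [h6, mul_smul] at h5
      exact h5
    rwa [hg] at h4
  have h2 : T' = ⊥ := by
    refine eq_bot_St h1 (hT.map _) ?_
    intro l hl t ht
    rw [hconj] at ht ⊢
    have hl' : g⁻¹ * l * g ∈ MulAction.stabilizer Co0 v := by
      show (g⁻¹ * l * g) • v = v
      have h3 : l • v0 = v0 := hl
      rw [← hg] at h3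
      rw [mul_smul, mul_smul, h3, ← mul_smul]
      simp
    have h3 := hnorm _ hl' _ ht
    have e : g⁻¹ * (l * t * l⁻¹) * g = (g⁻¹ * l * g) * (g⁻¹ * t * g) * (g⁻¹ * l * g)⁻¹ := by group
    rwa [e]
  have h3 := (Subgroup.map_eq_bot_iff_of_injective T (MulAut.conj g).injective).mp h2
  exact h3

end Cfsg.Agent.Lib.Monster.Co2Core
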