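import Cfsg.Agent.Lib.Monster.Form
import Cfsg.Agent.Lib.Monster.Co2Core
import Cfsg.Agent.S5422
import Cfsg.Agent.Lib.Components.GenFitting
import Cfsg.Agent.Lib.Leech.Center
import Cfsg.Agent.Lib.Leech.Classes

/-!
# Local analysis in a group of Monster type

The conjugates of the central involution in `Q` other than it have type 4.
-/

set_option autoImplicit false
set_option linter.unusedSectionVars false

open Cfsg

namespace Cfsg.Agent.Lib.Monster.Local

open Subgroup Cfsg.Agent.Lib.PGroups.Special Cfsg.Agent.Lib.PGroups.ClassTwo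
  Cfsg.Agent.Lib.Monster.Form
open scoped commutatorElement

/-! ### Transport of extraspecial groups -/

section Transport

variable {P P' : Type*} [Group P] [Group P'] [Finite P]

theorem map_mem_center (f : P ≃* P') {x : P} (hx : x ∈ center P) : f x ∈ center P' := by
  rw [Subgroup.mem_center_iff] at hx ⊢
  intro y
  have h := hx (f.symm y)
  have h2 := congrArg f h
  simpa using h2

theorem isExtraspecial_of_equiv (f : P ≃* P') (h : IsExtraspecial 2 P) : IsExtraspecial 2 P' := by
  have : Finite P' := Finite.of_equiv P f.toEquiv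
  have := Fact.mk Nat.prime_two
  have hL := extraLike_of_isExtraspecial h
  have hL' : ExtraLike 2 P' := by
    refine ⟨hL.isPGroup.of_equiv f, ?_, ?_, ?_⟩
    · rw [← hL.card_center]
      exact Nat.card_congr (Subgroup.centerCongr f).symm.toEquiv
    · intro x y
      have h1 := map_mem_center f (hL.comm_mem (f.symm x) (f.symm y))
      simpa [commutatorElement_def] using h1
    · intro x
      have h1 := map_mem_center f (hL.pow_mem (f.symm x))
      simpa using h1
  apply hL'.isExtraspecial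
  intro hc
  apply not_isMulCommutative_of_isExtraspecial h
  refine ⟨⟨fun a b => ?_⟩⟩
  apply f.injective
  rw [map_mul, map_mul]
  exact hc.is_comm.comm _ _

end Transport

/-! ### Extraspecial subgroups with centre generated by a given element -/

/-- `A` is extraspecial with centre generated by `z`. -/
structure ExtraAt {G : Type*} [Group G] (A : Subgroup G) (z : G) : Prop where
  ext : IsExtraspecial 2 A
  mem : z ∈ A
  comm : ∀ x ∈ A, x * z = z * x
  ne : z ≠ 1

section ExtraAt

variable {G : Type*} [Group G] [Finite G] {A B : Subgroup G} {z s : G}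

theorem ExtraAt.central (h : ExtraAt A z) {w : G} (hw : w ∈ A) (hc : ∀ x ∈ A, x * w = w * x) :
    w = 1 ∨ w = z := by
  by_cases h1 : w = 1
  · exact Or.inl h1
  right
  have h2 : (⟨w, hw⟩ : A) ∈ center A := by
    rw [Subgroup.mem_center_iff]
    rintro ⟨x, hx⟩
    exact Subtype.ext (hc x hx)
  have h3 : (⟨z, h.mem⟩ : A) ∈ center A := by
    rw [Subgroup.mem_center_iff]
    rintro ⟨x, hx⟩
    exact Subtype.ext (h.comm x hx)
  have h4 := center_unique h.ext.2 h2 h3 (fun e => h1 (congrArg Subtype.val e))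
    (fun e => h.ne (congrArg Subtype.val e))
  exact congrArg Subtype.val h4

theorem ExtraAt.comm_eq (h : ExtraAt A z) {x y : G} (hx : x ∈ A) (hy : y ∈ A) :
    ⁅x, y⁆ = 1 ∨ ⁅x, y⁆ = z := by
  have := Fact.mk Nat.prime_two
  have h1 := IsSpecial.comm_mem h.ext.1 (⟨x, hx⟩ : A) ⟨y, hy⟩
  refine h.central (A.mul_mem (A.mul_mem (A.mul_mem hx hy) (A.inv_mem hx)) (A.inv_mem hy)) ?_
  intro w hw
  have h2 := (Subgroup.mem_center_iff.mp h1) ⟨w, hw⟩
  exact congrArg Subtype.val h2

theorem ExtraAt.sq_eq (h : ExtraAt A z) {x : G} (hx : x ∈ A) : x ^ 2 = 1 ∨ x ^ 2 = z := by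
  have := Fact.mk Nat.prime_two
  have h1 := IsSpecial.pow_mem h.ext.1 (⟨x, hx⟩ : A)
  refine h.central (A.pow_mem hx 2) ?_
  intro w hw
  have h2 := (Subgroup.mem_center_iff.mp h1) ⟨w, hw⟩
  exact congrArg Subtype.val h2

/-- The centralizer of a non-central element has index 2. -/
theorem card_centralizer {E : Type*} [Group E] [Finite E] (h : ExtraLike 2 E) {x : E} (hx : x ∉ center E) :
    Nat.card (centralizer ({x} : Set E)) * 2 = Nat.card E := by
  have := Fact.mk Nat.prime_two
  set f := commHomRight h.comm_mem x with hf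
  have hker : f.ker = centralizer ({x} : Set E) := by
    ext g
    simp only [MonoidHom.mem_ker, hf, Subtype.ext_iff, commHomRight_coe, OneMemClass.coe_one,
      commutatorElement_eq_one_iff_mul_comm, mem_centralizer_iff, Set.mem_singleton_iff, forall_eq]
  have hne : f.range ≠ ⊥ := by
    intro hb
    apply hx
    rw [Subgroup.mem_center_iff]
    intro g
    have h1 : f g = 1 := by
      have : f g ∈ f.range := ⟨g, rfl⟩
      rw [hb] at this
      exact this
    have h2 : ⁅x, g⁆ = 1 := congrArg Subtype.val h1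
    exact (commutatorElement_eq_one_iff_mul_comm.mp h2).symm
  have hr : Nat.card f.range = 2 := by
    have h1 : Nat.card f.range ∣ Nat.card (center E) := Subgroup.card_subgroup_dvd_card _
    rw [h.card_center] at h1
    rcases (Nat.dvd_prime Nat.prime_two).mp h1 with h2 | h2
    · exact absurd (Subgroup.card_eq_one.mp h2) hne
    · exact h2
  have h2 := Subgroup.card_mul_index f.ker
  rw [Subgroup.index_ker, hr, hker] at h2
  exact h2

/-- **The centralizer of `z` in `B` is not inside `A`.** -/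
theorem exists_not_mem (hA : ExtraAt A z) (hB : ExtraAt B s) (hsA : s ∈ A) (hzB : z ∈ B) (hne : s ≠ z)
    (hcard : Nat.card A = Nat.card B) (h8 : 8 < Nat.card A) :
    ∃ r ∈ B, r * z = z * r ∧ r ∉ A := by
  classical
  have := Fact.mk Nat.prime_two
  by_contra hall
  push Not at hall
  have hLA := extraLike_of_isExtraspecial hA.ext
  have hLB := extraLike_of_isExtraspecial hB.ext
  set s' : A := ⟨s, hsA⟩ with hs'
  set z' : B := ⟨z, hzB⟩ with hz'
  have hs'c : s' ∉ center A := by
    intro hc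
    have h1 := hA.central hsA (fun x hx => congrArg Subtype.val ((Subgroup.mem_center_iff.mp hc) ⟨x, hx⟩))
    rcases h1 with h1 | h1
    · exact hB.ne h1
    · exact hne h1
  have hz'c : z' ∉ center B := by
    intro hc
    have h1 := hB.central hzB (fun x hx => congrArg Subtype.val ((Subgroup.mem_center_iff.mp hc) ⟨x, hx⟩))
    rcases h1 with h1 | h1
    · exact hA.ne h1
    · exact hne h1.symm
  have c1 := card_centralizer hLA hs'c
  have c2 := card_centralizer hLB hz'c
  -- the map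
  have hmap : ∀ r : centralizer ({z'} : Set B), (r : B).1 ∈ A := by
    rintro ⟨⟨r, hr⟩, hrc⟩
    refine hall r hr ?_
    have h1 := (mem_centralizer_iff.mp hrc) z' rfl
    exact (congrArg Subtype.val h1).symm
  let φ : centralizer ({z'} : Set B) → centralizer ({s'} : Set A) := fun r =>
    ⟨⟨(r : B).1, hmap r⟩, by
      rw [mem_centralizer_iff]
      rintro _ rfl
      apply Subtype.ext
      exact (hB.comm _ (r : B).2).symm⟩
  have hφ : Function.Injective φ := by
    intro a b hab
    have h1 : (a : B).1 = (b : B).1 := congrArg (fun x : centralizer ({s'} : Set A) => (x : A).1) hab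
    exact Subtype.ext (Subtype.ext h1)
  have hcards : Nat.card (centralizer ({s'} : Set A)) ≤ Nat.card (centralizer ({z'} : Set B)) := by omega
  have hsurj := (Function.Injective.bijective_of_nat_card_le hφ hcards).2
  have hPB : ∀ p : centralizer ({s'} : Set A), (p : A).1 ∈ B := by
    intro p
    obtain ⟨r, hr⟩ := hsurj p
    rw [← hr]
    exact (r : B).2
  -- the centralizer is commutative
  have hcomm : ∀ p p' : centralizer ({s'} : Set A), (p : A).1 * (p' : A).1 = (p' : A).1 * (p : A).1 := by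
    intro p p'
    have h1 := hA.comm_eq (p : A).2 (p' : A).2
    have h2 := hB.comm_eq (hPB p) (hPB p')
    have h3 : ⁅(p : A).1, (p' : A).1⁆ = 1 := by
      rcases h1 with h1 | h1
      · exact h1
      rcases h2 with h2 | h2
      · exact h2
      exact absurd (h2.symm.trans h1) hne
    exact commutatorElement_eq_one_iff_mul_comm.mp h3
  -- but it contains a non-commutative group
  obtain ⟨y, hy⟩ : ∃ y : A, ⁅s', y⁆ ≠ 1 := by
    by_contra hcon
    push Not at hcon
    apply hs'c
    rw [Subgroup.mem_center_iff]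
    intro g
    exact (commutatorElement_eq_one_iff_mul_comm.mp (hcon g)).symm
  have hD := hLA.centralizer_pair hy
  have hsplit := hLA.card_split hy
  have hDc : center (centralizer ({s', y} : Set A)) = ⊤ := by
    rw [eq_top_iff]
    rintro ⟨d, hd⟩ -
    rw [Subgroup.mem_center_iff]
    rintro ⟨d', hd'⟩
    have h1 : d ∈ centralizer ({s'} : Set A) := by
      rw [mem_centralizer_iff] at hd ⊢
      rintro _ rfl
      exact hd _ (by simp)
    have h2 : d' ∈ centralizer ({s'} : Set A) := by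
      rw [mem_centralizer_iff] at hd' ⊢
      rintro _ rfl
      exact hd' _ (by simp)
    apply Subtype.ext
    apply Subtype.ext
    exact hcomm ⟨d', h2⟩ ⟨d, h1⟩
  have h2 := hD.card_center
  rw [hDc] at h2
  have h3 : Nat.card (⊤ : Subgroup (centralizer ({s', y} : Set A))) = Nat.card (centralizer ({s', y} : Set A)) :=
    Nat.card_congr Subgroup.topEquiv.toEquiv
  rw [h3] at h2
  rw [h2] at hsplit
  omega

end ExtraAt

/-! ### The Monster setting -/

/-- The centralizer. -/
abbrev Cz {G : Type*} [Group G] (z : G) : Subgroup G := centralizer ({z} : Set G)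

/-- The setting. -/
structure MSet {G : Type*} [Group G] (z : G) (Q : Subgroup (Cz z)) [Q.Normal]
    (e : (Cz z) ⧸ Q ≃* Spor.Co1) (ψ : leechLattice → Q ⧸ center Q) : Prop where
  hz : orderOf z = 2
  hF : generalizedFittingSubgroup (Cz z) = Q
  hE : IsExtraspecial 2 Q
  hcard : Nat.card Q = 2 ^ 25
  hψ : IsLeechModTwoIso Q e ψ

section Setting

variable {G : Type*} [Group G] {z : G}

theorem mem_Cz {x : G} : x ∈ Cz z ↔ x * z = z * x := by
  rw [mem_centralizer_iff]
  constructor
  · intro h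
    exact (h z rfl).symm
  · rintro h _ rfl
    exact h.symm

/-- `z` as an element of its centralizer. -/
def zC (z : G) : Cz z := ⟨z, mem_Cz.mpr rfl⟩

theorem zC_mem_center (z : G) : zC z ∈ center (Cz z) := by
  rw [Subgroup.mem_center_iff]
  rintro ⟨x, hx⟩
  exact Subtype.ext (mem_Cz.mp hx)

/-- `Q` as a subgroup of `G`. -/
def Q0 (Q : Subgroup (Cz z)) : Subgroup G := Q.map (Cz z).subtype

theorem mem_Q0 {Q : Subgroup (Cz z)} {x : G} : x ∈ Q0 Q ↔ ∃ hx : x ∈ Cz z, (⟨x, hx⟩ : Cz z) ∈ Q := by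
  unfold Q0
  rw [Subgroup.mem_map]
  constructor
  · rintro ⟨y, hy, rfl⟩
    exact ⟨y.2, hy⟩
  · rintro ⟨hx, h⟩
    exact ⟨_, h, rfl⟩

theorem coe_mem_Q0 {Q : Subgroup (Cz z)} {x : Cz z} (hx : x ∈ Q) : (x : G) ∈ Q0 Q :=
  mem_Q0.mpr ⟨x.2, hx⟩

/-- `Q` conjugated by `g`. -/
def Q1 (Q : Subgroup (Cz z)) (g : G) : Subgroup G := (Q0 Q).map (MulAut.conj g).toMonoidHom

theorem mem_Q1 {Q : Subgroup (Cz z)} {g x : G} : x ∈ Q1 Q g ↔ g⁻¹ * x * g ∈ Q0 Q := by
  unfold Q1
  rw [Subgroup.mem_map]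
  constructor
  · rintro ⟨y, hy, rfl⟩
    simpa [mul_assoc] using hy
  · intro h
    exact ⟨_, h, by simp [mul_assoc]⟩

theorem extraAt_conj {A : Subgroup G} [Finite G] {z : G} (h : ExtraAt A z) (g : G) :
    ExtraAt (A.map (MulAut.conj g).toMonoidHom) (g * z * g⁻¹) := by
  refine ⟨isExtraspecial_of_equiv (A.equivMapOfInjective _ (MulAut.conj g).injective) h.ext, ?_, ?_, ?_⟩
  · exact ⟨z, h.mem, rfl⟩
  · rintro x ⟨y, hy, rfl⟩
    have h1 := h.comm y hy
    show g * y * g⁻¹ * (g * z * g⁻¹) = g * z * g⁻¹ * (g * y * g⁻¹)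
    have e1 : g * y * g⁻¹ * (g * z * g⁻¹) = g * (y * z) * g⁻¹ := by group
    have e2 : g * z * g⁻¹ * (g * y * g⁻¹) = g * (z * y) * g⁻¹ := by group
    rw [e1, e2, h1]
  · intro h1
    apply h.ne
    have h2 : g⁻¹ * (g * z * g⁻¹) * g = g⁻¹ * 1 * g := by rw [h1]
    simpa [mul_assoc] using h2

variable [Finite G] {Q : Subgroup (Cz z)} [Q.Normal] {e : (Cz z) ⧸ Q ≃* Spor.Co1}
  {ψ : leechLattice → Q ⧸ center Q}

theorem MSet.centralizes_mem (h : MSet z Q e ψ) {x : Cz z} (hx : ∀ q ∈ Q, q * x = x * q) : x ∈ Q := by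
  rw [← h.hF]
  apply Cfsg.Agent.Lib.Components.GenFitting.centralizer_generalizedFitting_le
  rw [h.hF, mem_centralizer_iff]
  intro q hq
  exact hx q hq

theorem MSet.zC_mem (h : MSet z Q e ψ) : zC z ∈ Q :=
  h.centralizes_mem fun q _ => (Subgroup.mem_center_iff.mp (zC_mem_center z)) q

theorem MSet.z_ne_one (h : MSet z Q e ψ) : z ≠ 1 := by
  intro h1
  have := h.hz
  rw [h1, orderOf_one] at this
  omega

theorem MSet.extra0 (h : MSet z Q e ψ) : ExtraAt (Q0 Q) z := by
  refine ⟨isExtraspecial_of_equiv (Q.equivMapOfInjective _ Subtype.val_injective) h.hE,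
    mem_Q0.mpr ⟨_, h.zC_mem⟩, ?_, h.z_ne_one⟩
  intro x hx
  obtain ⟨hx1, -⟩ := mem_Q0.mp hx
  exact mem_Cz.mp hx1

theorem MSet.card_Q0 (h : MSet z Q e ψ) : Nat.card (Q0 Q) = 2 ^ 25 := by
  rw [← h.hcard]
  exact Nat.card_congr (Q.equivMapOfInjective _ Subtype.val_injective).symm.toEquiv

theorem MSet.card_Q1 (h : MSet z Q e ψ) (g : G) : Nat.card (Q1 Q g) = 2 ^ 25 := by
  rw [← h.card_Q0]
  exact Nat.card_congr ((Q0 Q).equivMapOfInjective _ (MulAut.conj g).injective).symm.toEquiv

theorem MSet.extra1 (h : MSet z Q e ψ) (g : G) : ExtraAt (Q1 Q g) (g * z * g⁻¹) :=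
  extraAt_conj h.extra0 g

/-- `z` lies in the conjugate (by S5422). -/
theorem MSet.z_mem_Q1 (h : MSet z Q e ψ) {g : G} (hs : g * z * g⁻¹ ∈ Q0 Q) (hne : g * z * g⁻¹ ≠ z) :
    z ∈ Q1 Q g := by
  have hX := h.extra0
  have hcen : ∀ x ∈ center (Q0 Q), ((x : Q0 Q) : G) = 1 ∨ ((x : Q0 Q) : G) = z := by
    intro x hx
    exact hX.central x.2 (fun y hy => congrArg Subtype.val ((Subgroup.mem_center_iff.mp hx) ⟨y, hy⟩))
  have hzc : (⟨z, hX.mem⟩ : Q0 Q) ∈ center (Q0 Q) := by
    rw [Subgroup.mem_center_iff]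
    rintro ⟨y, hy⟩
    exact Subtype.ext (hX.comm y hy)
  have hL2 : centralizer (Q0 Q : Set G) = ((center (Q0 Q)).map (Q0 Q).subtype) := by
    apply le_antisymm
    · intro x hx
      rw [mem_centralizer_iff] at hx
      have hx1 : x ∈ Cz z := mem_Cz.mpr (hx z hX.mem).symm
      have hx2 : (⟨x, hx1⟩ : Cz z) ∈ Q := by
        apply h.centralizes_mem
        intro q hq
        exact Subtype.ext (hx q (coe_mem_Q0 hq))
      refine ⟨⟨x, mem_Q0.mpr ⟨hx1, hx2⟩⟩, ?_, rfl⟩
      rw [SetLike.mem_coe, Subgroup.mem_center_iff]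
      rintro ⟨y, hy⟩
      exact Subtype.ext (hx y hy)
    · rintro _ ⟨x, hx, rfl⟩
      rw [mem_centralizer_iff]
      intro y hy
      exact congrArg Subtype.val ((Subgroup.mem_center_iff.mp hx) ⟨y, hy⟩)
  have hL3 : centralizer (((center (Q0 Q)).map (Q0 Q).subtype : Subgroup G) : Set G) ≤
      normalizer (Q0 Q : Set G) := by
    intro x hx
    rw [mem_centralizer_iff] at hx
    have hx1 : x ∈ Cz z := mem_Cz.mpr (hx z ⟨_, hzc, rfl⟩).symm
    rw [Subgroup.mem_normalizer_iff]
    intro y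
    have key : ∀ (c : Cz z) (y : G), y ∈ Q0 Q → (c : G) * y * (c : G)⁻¹ ∈ Q0 Q := by
      intro c y hy
      obtain ⟨hy1, hy2⟩ := mem_Q0.mp hy
      have := (inferInstance : Q.Normal).conj_mem _ hy2 c
      exact coe_mem_Q0 this
    constructor
    · exact key ⟨x, hx1⟩ y
    · intro hy
      have := key (⟨x, hx1⟩⁻¹) _ hy
      simpa [mul_assoc] using this
  have hg : g ∉ normalizer (((center (Q0 Q)).map (Q0 Q).subtype : Subgroup G) : Set G) := by
    intro hgn
    rw [Subgroup.mem_normalizer_iff] at hgn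
    have h1 := (hgn z).mp ⟨_, hzc, rfl⟩
    obtain ⟨y, hy, hy2⟩ := h1
    rcases hcen y hy with h2 | h2
    · apply h.z_ne_one
      have h3 : g * z * g⁻¹ = 1 := by
        rw [← hy2]
        exact h2
      have h4 : g⁻¹ * (g * z * g⁻¹) * g = g⁻¹ * 1 * g := by rw [h3]
      simpa [mul_assoc] using h4
    · apply hne
      rw [← hy2]
      exact h2
  have hZg : (((center (Q0 Q)).map (Q0 Q).subtype).map (MulAut.conj g).toMonoidHom) ≤ Q0 Q := by
    rintro _ ⟨_, ⟨y, hy, rfl⟩, rfl⟩
    rcases hcen y hy with h2 | h2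
    · show g * (y : G) * g⁻¹ ∈ Q0 Q
      rw [h2]
      simp
    · show g * (y : G) * g⁻¹ ∈ Q0 Q
      rw [h2]
      exact hs
  obtain ⟨h1, -⟩ := Cfsg.Agent.S5422.result (Q0 Q) hX.ext hL2 hL3 12 (by norm_num) h.card_Q0 g hg hZg
  exact h1 ⟨_, hzc, rfl⟩

/-- Two elements of `Q` with the same image modulo the centre. -/
theorem MSet.mem_center_iff (h : MSet z Q e ψ) (x : Q) :
    x ∈ center Q ↔ (x : Cz z) = 1 ∨ (x : Cz z) = zC z := by
  constructor
  · intro hx
    have h1 := h.extra0.central (coe_mem_Q0 x.2) (fun y hy => by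
      obtain ⟨hy1, hy2⟩ := mem_Q0.mp hy
      have h2 := (Subgroup.mem_center_iff.mp hx) ⟨⟨y, hy1⟩, hy2⟩
      have h3 := congrArg (fun a : Q => ((a : Cz z) : G)) h2
      exact h3)
    rcases h1 with h1 | h1
    · exact Or.inl (Subtype.ext h1)
    · exact Or.inr (Subtype.ext h1)
  · rintro (h1 | h1)
    · have : x = 1 := Subtype.ext h1
      rw [this]
      exact Subgroup.one_mem _
    · rw [Subgroup.mem_center_iff]
      rintro ⟨y, hy⟩
      apply Subtype.ext
      show y * (x : Cz z) = (x : Cz z) * y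
      rw [h1]
      exact (Subgroup.mem_center_iff.mp (zC_mem_center z)) y

/-- The element `z` of `Q`. -/
def MSet.zQ (h : MSet z Q e ψ) : Q := ⟨zC z, h.zC_mem⟩

theorem MSet.mk_eq_iff (h : MSet z Q e ψ) {a b : Q} :
    (QuotientGroup.mk a : Q ⧸ center Q) = QuotientGroup.mk b ↔ b = a ∨ b = a * h.zQ := by
  rw [QuotientGroup.eq, h.mem_center_iff]
  constructor
  · rintro (h1 | h1)
    · left
      have h2 : a⁻¹ * b = 1 := Subtype.ext h1
      exact (inv_mul_eq_one.mp h2).symm
    · right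
      have h2 : a⁻¹ * b = h.zQ := Subtype.ext h1
      rw [← h2]
      group
  · rintro (h1 | h1)
    · left
      rw [h1]
      simp
    · right
      rw [h1]
      simp [MSet.zQ]

/-- Non-central elements are conjugate to their product with `z` under `Q`. -/
theorem MSet.exists_conj (h : MSet z Q e ψ) {a : Q} (ha : a ∉ center Q) :
    ∃ x : Q, x * a * x⁻¹ = a * h.zQ := by
  obtain ⟨x, hx⟩ : ∃ x : Q, x * a ≠ a * x := by
    by_contra hcon
    push Not at hcon
    apply ha
    rw [Subgroup.mem_center_iff]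
    exact fun g => hcon g
  refine ⟨x, ?_⟩
  have := Fact.mk Nat.prime_two
  have h1 := IsSpecial.comm_mem h.hE.1 x a
  have h2 : ⁅x, a⁆ ≠ 1 := by
    intro h3
    exact hx (commutatorElement_eq_one_iff_mul_comm.mp h3)
  have h3 := (h.mem_center_iff _).mp h1
  have h4 : ⁅x, a⁆ = h.zQ := by
    rcases h3 with h3 | h3
    · exact absurd (Subtype.ext h3) h2
    · exact Subtype.ext h3
  have h5 : x * a * x⁻¹ = ⁅x, a⁆ * a := by
    simp [commutatorElement_def]
  rw [h5, h4]
  have h6 : h.zQ ∈ center Q := (h.mem_center_iff _).mpr (Or.inr rfl)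
  exact ((Subgroup.mem_center_iff.mp h6) a).symm

theorem conj_not_center {a : Q} (h0 : a ∉ center Q) (c : Cz z) :
    (⟨c * a * c⁻¹, (inferInstance : Q.Normal).conj_mem _ a.2 c⟩ : Q) ∉ center Q := by
  intro h1
  apply h0
  rw [Subgroup.mem_center_iff] at h1 ⊢
  rintro ⟨y, hy⟩
  have h2 := h1 ⟨c * y * c⁻¹, (inferInstance : Q.Normal).conj_mem _ hy c⟩
  apply Subtype.ext
  have h3 := congrArg Subtype.val h2
  have h4 : c * y * c⁻¹ * (c * (a : Cz z) * c⁻¹) = c * (y * a) * c⁻¹ := by group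
  have h5 : c * (a : Cz z) * c⁻¹ * (c * y * c⁻¹) = c * (a * y) * c⁻¹ := by group
  have h6 : c * (y * a) * c⁻¹ = c * (a * y) * c⁻¹ := by
    rw [← h4, ← h5]
    exact h3
  have h7 := mul_left_cancel (mul_right_cancel h6)
  exact h7

/-- Lifting an automorphism of the lattice. -/
theorem MSet.exists_lift (h : MSet z Q e ψ) (γ : Co0) :
    ∃ c : Cz z, (QuotientGroup.mk γ : Spor.Co1) = e (QuotientGroup.mk c) := by
  obtain ⟨c, hc⟩ := QuotientGroup.mk_surjective (e.symm (QuotientGroup.mk γ))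
  refine ⟨c, ?_⟩
  rw [hc]
  simp

/-- Lifting an element of `C` to an automorphism of the lattice. -/
theorem MSet.exists_lift_mk (h : MSet z Q e ψ) (c : Cz z) :
    ∃ γ : Co0, (QuotientGroup.mk γ : Spor.Co1) = e (QuotientGroup.mk c) := by
  obtain ⟨γ, hγ⟩ := QuotientGroup.mk_surjective (e (QuotientGroup.mk c))
  exact ⟨γ, hγ⟩

/-- Conjugating elements of `Q` through an automorphism of the lattice. -/
theorem MSet.exists_conj_of_smul (h : MSet z Q e ψ) (γ : Co0) {v : leechLattice} {a b : Q}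
    (hv : ψ v = QuotientGroup.mk a) (hw : ψ (γ • v) = QuotientGroup.mk b) (ha : a ∉ center Q) :
    ∃ c : Cz z, (QuotientGroup.mk γ : Spor.Co1) = e (QuotientGroup.mk c) ∧
      c * (a : Cz z) * c⁻¹ = (b : Cz z) := by
  obtain ⟨c, hc⟩ := h.exists_lift γ
  have h1 := h.hψ.2.2.2 c γ hc v a hv
  rw [hw] at h1
  set a1 : Q := ⟨c * a * c⁻¹, (inferInstance : Q.Normal).conj_mem _ a.2 c⟩ with ha1
  rcases h.mk_eq_iff.mp h1.symm with h2 | h2
  · exact ⟨c, hc, (congrArg Subtype.val h2).symm⟩
  · -- correct by an element of `Q`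
    have hnc : a1 ∉ center Q := conj_not_center ha c
    obtain ⟨x, hx⟩ := h.exists_conj hnc
    refine ⟨(x : Cz z) * c, ?_, ?_⟩
    · rw [hc]
      congr 1
      rw [QuotientGroup.mk_mul]
      have : (QuotientGroup.mk (x : Cz z) : Cz z ⧸ Q) = 1 := (QuotientGroup.eq_one_iff _).mpr x.2
      rw [this, one_mul]
    · have h3 := congrArg Subtype.val hx
      have h4 : ((x : Cz z) * c) * (a : Cz z) * ((x : Cz z) * c)⁻¹ = (x : Cz z) * (c * a * c⁻¹) * (x : Cz z)⁻¹ := by
        group
      rw [h4]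
      rw [h2]
      exact h3

end Setting

end Cfsg.Agent.Lib.Monster.Local
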