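import Cfsg.Agent.Lib.Monster.BabyLat
import Cfsg.Agent.Lib.CharP.Basic

/-!
# The centralizer of a non-central involution of `Q` of type 2

The section `C_C(t)/⟨t⟩` and its quotient `Co₂`.
-/

set_option autoImplicit false
set_option linter.unusedSectionVars false
set_option linter.unusedVariables false

open Cfsg

namespace Cfsg.Agent.Lib.Monster.Baby

open Subgroup Cfsg.Agent.Lib.PGroups.Special Cfsg.Agent.Lib.PGroups.ClassTwo
  Cfsg.Agent.Lib.Monster.Form Cfsg.Agent.Lib.Monster.Local Cfsg.Agent.Lib.Monster.That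
  Cfsg.Agent.Lib.Monster.Types Cfsg.Agent.Lib.Monster.Frame Cfsg.Agent.Lib.Monster.BabyLat
  Cfsg.Agent.Lib.Leech.Lat
open scoped commutatorElement

/-! ### Abstract lemmas -/

section Abstract

variable {P : Type*} [Group P]

theorem ch_comm_symm (x y : P) : ch ⁅x, y⁆ = ch ⁅y, x⁆ := by
  unfold ch
  have h : ⁅x, y⁆ = 1 ↔ ⁅y, x⁆ = 1 := by
    rw [commutatorElement_eq_one_iff_mul_comm, commutatorElement_eq_one_iff_mul_comm]
    exact eq_comm
  by_cases h1 : ⁅x, y⁆ = 1
  · rw [if_pos h1, if_pos (h.mp h1)]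
  · rw [if_neg h1, if_neg (fun h2 => h1 (h.mpr h2))]

theorem ch_eq_one {w : P} (h : w ≠ 1) : ch w = 1 := by
  unfold ch
  rw [if_neg h]

theorem center_of_centralizer [Finite P] (h : IsExtraspecial 2 P) {a x : P}
    (hall : ∀ y : P, ⁅a, y⁆ = 1 → ⁅x, y⁆ = 1) : x ∈ center P ∨ a * x ∈ center P := by
  by_contra hcon
  push Not at hcon
  obtain ⟨hx, hax⟩ := hcon
  have hex : ∀ w : P, w ∉ center P → ∃ y : P, ⁅w, y⁆ ≠ 1 := by
    intro w hw
    by_contra hc
    push Not at hc
    apply hw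
    rw [Subgroup.mem_center_iff]
    intro g
    exact (commutatorElement_eq_one_iff_mul_comm.mp (hc g)).symm
  obtain ⟨y, hy⟩ := hex x hx
  obtain ⟨y', hy'⟩ := hex _ hax
  have h1 : ch ⁅x, y⁆ = 1 := ch_eq_one hy
  have h2 : ch ⁅a, y⁆ = 1 := ch_eq_one fun h3 => hy (hall y h3)
  have h3 : ch ⁅a * x, y'⁆ = 1 := ch_eq_one hy'
  rw [ch_comm_symm, ch_comm_mul_right h, ch_comm_symm y' a, ch_comm_symm y' x] at h3
  by_cases h4 : ⁅a, y'⁆ = 1
  · rw [ch_eq_zero.mpr h4, ch_eq_zero.mpr (hall y' h4)] at h3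
    simp at h3
  · have h5 : ch ⁅a, y'⁆ = 1 := ch_eq_one h4
    rw [h5] at h3
    have h6 : ch ⁅x, y'⁆ = 0 := by
      generalize ch ⁅x, y'⁆ = c at h3 ⊢
      revert c
      decide
    have h7 : ch ⁅a, y * y'⁆ = 0 := by
      rw [ch_comm_mul_right h, h2, h5]
      decide
    have h8 := hall _ (ch_eq_zero.mp h7)
    have h9 := ch_comm_mul_right h x y y'
    rw [h8, ch_one, h1, h6] at h9
    revert h9
    decide

/-- Quotient of an almost extraspecial group. -/
theorem extra_quot {A R : Type*} [Group A] [Group R] (f : A →* R) (hf : Function.Surjective f) (zA tA : A)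
    (hp : IsPGroup 2 A) (hzc : zA ∈ center A) (hz1 : zA ≠ 1) (htz : tA ≠ zA) (ht1 : tA ≠ 1)
    (hker : ∀ x, f x = 1 ↔ x = 1 ∨ x = tA)
    (hcomm : ∀ x y : A, ⁅x, y⁆ = 1 ∨ ⁅x, y⁆ = zA)
    (hsq : ∀ x : A, x ^ 2 = 1 ∨ x ^ 2 = zA)
    (hcen : ∀ x ∈ center A, x = 1 ∨ x = zA ∨ x = tA ∨ x = tA * zA) (htc : tA ∈ center A) :
    (∀ y : R, y ∈ center R ↔ y = 1 ∨ y = f zA) ∧ f zA ≠ 1 ∧ ExtraLike 2 R := by
  have hfz : f zA ≠ 1 := by
    intro h
    rcases (hker _).mp h with h1 | h1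
    · exact hz1 h1
    · exact htz h1.symm
  have hzR : f zA ∈ center R := by
    rw [Subgroup.mem_center_iff]
    intro g
    obtain ⟨g', rfl⟩ := hf g
    rw [← map_mul, ← map_mul, (Subgroup.mem_center_iff.mp hzc) g']
  have hc : ∀ y : R, y ∈ center R ↔ y = 1 ∨ y = f zA := by
    intro y
    constructor
    · intro hy
      obtain ⟨x, rfl⟩ := hf y
      have hx : x ∈ center A := by
        rw [Subgroup.mem_center_iff]
        intro w
        have h1 : f ⁅x, w⁆ = 1 := by
          rw [map_commutatorElement, commutatorElement_eq_one_iff_mul_comm]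
          exact ((Subgroup.mem_center_iff.mp hy) (f w)).symm
        rcases hcomm x w with h2 | h2
        · exact (commutatorElement_eq_one_iff_mul_comm.mp h2).symm
        · rw [h2] at h1
          exact absurd h1 hfz
      rcases hcen x hx with h1 | h1 | h1 | h1
      · left; rw [h1, map_one]
      · right; rw [h1]
      · left; exact (hker _).mpr (Or.inr h1)
      · right; rw [h1, map_mul, (hker tA).mpr (Or.inr rfl), one_mul]
    · rintro (rfl | rfl)
      · exact Subgroup.one_mem _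
      · exact hzR
  refine ⟨hc, hfz, hp.of_surjective f hf, ?_, ?_, ?_⟩
  · rw [Nat.card_eq_two_iff' (1 : center R)]
    refine ⟨⟨f zA, hzR⟩, fun h => hfz (congrArg Subtype.val h), ?_⟩
    rintro ⟨y, hy⟩ hne
    apply Subtype.ext
    rcases (hc y).mp hy with h1 | h1
    · exact absurd (Subtype.ext h1) hne
    · exact h1
  · intro x y
    obtain ⟨x', rfl⟩ := hf x
    obtain ⟨y', rfl⟩ := hf y
    rw [← map_commutatorElement]
    rcases hcomm x' y' with h1 | h1 <;> rw [h1]
    · rw [map_one]; exact Subgroup.one_mem _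
    · exact hzR
  · intro x
    obtain ⟨x', rfl⟩ := hf x
    rw [← map_pow]
    rcases hsq x' with h1 | h1 <;> rw [h1]
    · rw [map_one]; exact Subgroup.one_mem _
    · exact hzR

/-- Factoring through a surjection. -/
noncomputable def factor {A B C : Type*} [Group A] [Group B] [Group C] (φ : A →* B) (hφ : Function.Surjective φ)
    (κ : A →* C) (h : φ.ker ≤ κ.ker) : B →* C :=
  (QuotientGroup.lift φ.ker κ (fun x hx => h hx)).comp
    (QuotientGroup.quotientKerEquivOfSurjective φ hφ).symm.toMonoidHom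

theorem factor_apply {A B C : Type*} [Group A] [Group B] [Group C] (φ : A →* B) (hφ : Function.Surjective φ)
    (κ : A →* C) (h : φ.ker ≤ κ.ker) (a : A) : factor φ hφ κ h (φ a) = κ a := by
  unfold factor
  have h1 : (QuotientGroup.quotientKerEquivOfSurjective φ hφ).symm (φ a) = QuotientGroup.mk a := by
    rw [MulEquiv.symm_apply_eq]
    rfl
  show QuotientGroup.lift φ.ker κ (fun x hx => h hx) ((QuotientGroup.quotientKerEquivOfSurjective φ hφ).symm (φ a)) = _
  rw [h1]
  rfl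

end Abstract

/-! ### Changing the frame -/

section Twist

variable {G : Type*} [Group G] [Finite G] {z : G} {Q : Subgroup (Cz z)} [Q.Normal]
  {e : (Cz z) ⧸ Q ≃* Spor.Co1} {ψ : leechLattice → Q ⧸ center Q}

theorem MSet.twist (h : MSet z Q e ψ) (γ : Co0) :
    MSet z Q (e.trans (MulAut.conj (mk1 γ)⁻¹)) (fun v => ψ (γ • v)) := by
  refine ⟨h.hz, h.hF, h.hE, h.hcard, ?_, ?_, ?_, ?_⟩
  · intro v w
    show ψ (γ • (v + w)) = ψ (γ • v) * ψ (γ • w)
    rw [Leech.Lat.smul_add, h.hψ.1]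
  · intro y
    obtain ⟨v, rfl⟩ := h.hψ.2.1 y
    exact ⟨γ⁻¹ • v, by simp⟩
  · intro v
    constructor
    · intro h1
      obtain ⟨w, hw⟩ := (h.hψ.2.2.1 _).mp h1
      refine ⟨γ⁻¹ • w, ?_⟩
      rw [← Leech.Lat.smul_add, ← hw, inv_smul_smul]
    · rintro ⟨w, rfl⟩
      apply (h.hψ.2.2.1 _).mpr
      exact ⟨γ • w, Leech.Lat.smul_add γ w w⟩
  · intro c g hg v q hq
    have h1 : (QuotientGroup.mk (γ * g * γ⁻¹) : Spor.Co1) = e (QuotientGroup.mk c) := by
      have h2 : (mk1 g) = (mk1 γ)⁻¹ * e (QuotientGroup.mk c) * ((mk1 γ)⁻¹)⁻¹ := hg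
      show mk1 (γ * g * γ⁻¹) = _
      rw [map_mul, map_mul, map_inv, h2]
      group
    have h3 := h.hψ.2.2.2 c _ h1 (γ • v) q hq
    have h4 : (γ * g * γ⁻¹) • γ • v = γ • g • v := by
      rw [smul_smul, smul_smul]
      congr 1
      group
    rw [h4] at h3
    exact h3

end Twist

/-! ### The setting -/

/-- The elements of `C` commuting with `t`. -/
abbrev Bz {G : Type*} [Group G] (z t : G) : Subgroup (Cz z) := (Cz t).subgroupOf (Cz z)

theorem mem_Bz {G : Type*} [Group G] {z t : G} {b : Cz z} : b ∈ Bz z t ↔ (b : G) * t = t * b := by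
  rw [mem_subgroupOf]
  exact mem_Cz

/-- Inclusion of the second Conway group. -/
def toCo0 : Spor.Co2 →* Co0 := Subgroup.inclusion inf_le_left

theorem toCo0_smul (g : Spor.Co2) (v : L) : toCo0 g • v = g • v := rfl

theorem toCo0_fix (g : Spor.Co2) : toCo0 g • uL = uL := g.2.2

theorem toCo0_inj : Function.Injective toCo0 := Subgroup.inclusion_injective _

/-- Map to the first Conway group. -/
noncomputable def rho : Spor.Co2 →* Spor.Co1 := mk1.comp toCo0

theorem rho_apply (g : Spor.Co2) : rho g = mk1 (toCo0 g) := rfl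

theorem negG_not_fix {g : Co0} (hg : g • uL = uL) : g ≠ negG := by
  rintro rfl
  rw [negG_smul'] at hg
  have h2 : (uL : GolayPt → ℤ) none = 4 := by
    show Spor.vecU none = 4
    decide +kernel
  have h3 := congrFun (congrArg Subtype.val hg) none
  simp only [AddSubgroup.coe_neg, Pi.neg_apply] at h3
  rw [h2] at h3
  norm_num at h3

theorem rho_inj : Function.Injective rho := by
  rw [injective_iff_map_eq_one]
  intro g hg
  rcases mk1_eq_one.mp hg with h | h
  · apply toCo0_inj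
    rw [h, map_one]
  · exact absurd h (negG_not_fix (toCo0_fix g))

/-- An element fixing the vector up to sign, with a given image. -/
theorem exists_rho_of_cong {γ : Co0} (h : Cong (γ • uL) uL) : ∃ g : Spor.Co2, rho g = mk1 γ := by
  by_cases h1 : ((γ • uL : L) : GolayPt → ℤ) = uL
  · exact ⟨⟨γ, γ.2, Subtype.ext h1⟩, rfl⟩
  · have hn : sqNorm ((γ • uL : L) : GolayPt → ℤ) = 32 := by rw [smul_sqNorm, sqNorm_uL]
    rcases short_congruent (γ • uL).2 uL.2 h1 (by rw [hn]; norm_num) (by rw [sqNorm_uL]; norm_num) h with h2 | h2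
    · have h3 : (negG * γ) • uL = uL := by
        apply Subtype.ext
        show ((negG • (γ • uL) : L) : GolayPt → ℤ) = uL
        rw [negG_smul, h2, neg_neg]
      refine ⟨⟨negG * γ, (negG * γ).2, h3⟩, ?_⟩
      show mk1 (negG * γ) = mk1 γ
      rw [map_mul, mk1_eq_one.mpr (Or.inr rfl), one_mul]
    · rw [sqNorm_uL] at h2
      omega

variable {G : Type*} [Group G] [Finite G] {z t : G} {Q : Subgroup (Cz z)} [Q.Normal]
  {e : (Cz z) ⧸ Q ≃* Spor.Co1} {ψ : leechLattice → Q ⧸ center Q} {a : Q}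
  {D : Type*} [Group D] {π : Cz t →* D}

/-- The setting. -/
structure BS (z t : G) (Q : Subgroup (Cz z)) [Q.Normal] (e : (Cz z) ⧸ Q ≃* Spor.Co1)
    (ψ : leechLattice → Q ⧸ center Q) (a : Q) (π : Cz t →* D) : Prop where
  h : MSet z Q e ψ
  ha : ((a : Cz z) : G) = t
  hu : ψ uL = QuotientGroup.mk a
  hnc : a ∉ center Q
  ht : ¬ IsConj z t
  hπ : Function.Surjective π
  hk : ∀ x : Cz t, π x = 1 ↔ (x : G) = 1 ∨ (x : G) = t
  hnwc : NWC z Q
  ht2 : t ^ 2 = 1

section BS

variable (S : BS z t Q e ψ a π)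
include S

theorem BS.mem_Cz : t ∈ Cz z := by
  rw [← S.ha]
  exact (a : Cz z).2

theorem BS.z_mem : z ∈ Cz t := by
  rw [Cfsg.Agent.Lib.Monster.Local.mem_Cz]
  exact (Cfsg.Agent.Lib.Monster.Local.mem_Cz.mp S.mem_Cz).symm

theorem BS.t_ne_z : t ≠ z := by
  intro h
  apply S.ht
  rw [h]

theorem BS.z_one : z ≠ 1 := S.h.z_ne_one

theorem BS.t_one : t ≠ 1 := by
  intro h1
  apply S.hnc
  have : a = 1 := by
    apply Subtype.ext
    apply Subtype.ext
    rw [S.ha, h1]
    rfl
  rw [this]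
  exact Subgroup.one_mem _

theorem BS.z_sq : z ^ 2 = 1 := by
  rw [← S.h.hz]
  exact pow_orderOf_eq_one z

/-- `z t` is conjugate to `t`. -/
theorem BS.conj_tz : IsConj t (t * z) := by
  obtain ⟨x, hx⟩ := S.h.exists_conj S.hnc
  rw [isConj_iff]
  refine ⟨((x : Cz z) : G), ?_⟩
  have h1 : ((x : Cz z) : G) * ((a : Cz z) : G) * ((x : Cz z) : G)⁻¹ = ((a : Cz z) : G) * z :=
    congrArg (fun y : Q => ((y : Cz z) : G)) hx
  have h2 := S.ha
  simpa only [h2] using h1

theorem BS.not_conj_tz : ¬ IsConj z (t * z) := fun h => S.ht (h.trans S.conj_tz.symm)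

/-- The commutator form against `t`. -/
theorem BS.comm_t {v : L} {q : Q} (hv : ψ v = QuotientGroup.mk q) :
    (((q : Cz z) : G) * t = t * ((q : Cz z) : G)) ↔ Perp v := by
  have h1 := comm_eq_one_iff S.h.hE S.h.hψ hv S.hu
  unfold Perp
  rw [← h1, commutatorElement_eq_one_iff_mul_comm, ← S.ha]
  constructor
  · intro h
    apply Subtype.ext
    apply Subtype.ext
    exact h.symm
  · intro h
    exact (congrArg (fun y : Q => ((y : Cz z) : G)) h).symm

/-- Classes modulo `⟨u⟩ + 2Λ`. -/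
theorem BS.psi_inM {v : L} : (ψ v = 1 ∨ ψ v = ψ uL) ↔ InM v := by
  constructor
  · rintro (h | h)
    · exact Or.inl ((S.h.hψ.2.2.1 v).mp h)
    · obtain ⟨w, hw, h2⟩ := (psi_eq_iff S.h).mp h
      refine Or.inr ⟨⟨w, hw⟩, ?_⟩
      apply Subtype.ext
      have : (v : GolayPt → ℤ) = (uL : GolayPt → ℤ) + (2 : ℕ) • w := by
        rw [← h2]
        abel
      rw [this, two_nsmul]
      rfl
  · rintro (⟨w, rfl⟩ | ⟨w, rfl⟩)
    · exact Or.inl ((S.h.hψ.2.2.1 _).mpr ⟨w, rfl⟩)
    · right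
      rw [S.h.hψ.1, (S.h.hψ.2.2.1 (w + w)).mpr ⟨w, rfl⟩, mul_one]

theorem BS.exists_rho (b : Bz z t) : ∃ g : Spor.Co2, rho g = e (QuotientGroup.mk (b : Cz z)) := by
  obtain ⟨γ, hγ⟩ := S.h.exists_lift_mk (b : Cz z)
  have h1 : ψ (γ • uL) = ψ uL := by
    rw [S.h.hψ.2.2.2 _ γ hγ uL a S.hu, S.hu]
    congr 1
    apply Subtype.ext
    apply Subtype.ext
    show ((b : Cz z) : G) * ((a : Cz z) : G) * ((b : Cz z) : G)⁻¹ = _
    rw [S.ha, mem_Bz.mp b.2]
    simp
  obtain ⟨g, hg⟩ := exists_rho_of_cong ((psi_eq_iff S.h).mp h1)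
  exact ⟨g, hg.trans hγ⟩

omit S in
/-- The map to the second Conway group. -/
noncomputable def kap (S : BS z t Q e ψ a π) : Bz z t →* Spor.Co2 :=
  ((MonoidHom.ofInjective rho_inj).symm.toMonoidHom).comp
    (MonoidHom.codRestrict (e.toMonoidHom.comp ((QuotientGroup.mk' Q).comp (Bz z t).subtype)) rho.range
      (fun b => by
        obtain ⟨g, hg⟩ := S.exists_rho b
        exact ⟨g, hg⟩))

theorem rho_kap (b : Bz z t) : rho (kap S b) = e (QuotientGroup.mk (b : Cz z)) := by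
  unfold kap
  exact congrArg Subtype.val (MulEquiv.apply_symm_apply (MonoidHom.ofInjective rho_inj) _)

theorem kap_eq_iff {b : Bz z t} {g : Spor.Co2} : kap S b = g ↔ rho g = e (QuotientGroup.mk (b : Cz z)) := by
  rw [← rho_kap S b]
  constructor
  · rintro rfl
    rfl
  · intro h
    exact rho_inj h.symm

theorem kap_eq_one_iff {b : Bz z t} : kap S b = 1 ↔ (b : Cz z) ∈ Q := by
  rw [kap_eq_iff S, map_one]
  constructor
  · intro h
    have h1 : (QuotientGroup.mk (b : Cz z) : Cz z ⧸ Q) = 1 := by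
      apply e.injective
      rw [← h, map_one]
    exact (QuotientGroup.eq_one_iff _).mp h1
  · intro h
    rw [(QuotientGroup.eq_one_iff _).mpr h, map_one]

theorem kap_surj : Function.Surjective (kap S) := by
  intro g
  have h1 : ψ (toCo0 g • uL) = QuotientGroup.mk a := by
    rw [toCo0_fix, S.hu]
  obtain ⟨c, hc, hca⟩ := S.h.exists_conj_of_smul (toCo0 g) S.hu h1 S.hnc
  have hb : c ∈ Bz z t := by
    rw [mem_Bz]
    have h2 := congrArg Subtype.val hca
    have h3 : (c : G) * t * (c : G)⁻¹ = t := by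
      rw [← S.ha]
      exact h2
    calc (c : G) * t = (c : G) * t * (c : G)⁻¹ * (c : G) := by group
      _ = t * c := by rw [h3]
  refine ⟨⟨c, hb⟩, (kap_eq_iff S).mpr hc⟩

/-- Transport of classes. -/
theorem kap_smul (b : Bz z t) (v : L) (q : Q) (hq : ψ v = QuotientGroup.mk q) :
    ψ (kap S b • v) = QuotientGroup.mk ⟨(b : Cz z) * q * (b : Cz z)⁻¹, (inferInstance : Q.Normal).conj_mem _ q.2 _⟩ :=
  S.h.hψ.2.2.2 _ (toCo0 (kap S b)) (rho_kap S b) v q hq

/-! ### The map to the centralizer in the quotient -/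

omit S in
/-- The image of `z`. -/
noncomputable def zbar (S : BS z t Q e ψ a π) : D := π ⟨z, S.z_mem⟩

omit S in
/-- An element of `Bz` in the centralizer of `t`. -/
def inT (b : Bz z t) : Cz t := ⟨(b : G), b.2⟩

theorem inT_mul (b c : Bz z t) : inT (b * c) = inT b * inT c := rfl

omit S in
/-- The map. -/
noncomputable def phi (S : BS z t Q e ψ a π) : Bz z t →* Cz (zbar S) where
  toFun b := ⟨π (inT b), by
    rw [Cfsg.Agent.Lib.Monster.Local.mem_Cz]
    unfold zbar
    rw [← map_mul, ← map_mul]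
    congr 1
    apply Subtype.ext
    exact Cfsg.Agent.Lib.Monster.Local.mem_Cz.mp (b : Cz z).2⟩
  map_one' := by
    apply Subtype.ext
    exact map_one π
  map_mul' b c := by
    apply Subtype.ext
    exact map_mul π (inT b) (inT c)

theorem phi_coe (b : Bz z t) : ((phi S b : Cz (zbar S)) : D) = π (inT b) := rfl

theorem phi_eq_one_iff {b : Bz z t} : phi S b = 1 ↔ ((b : Cz z) : G) = 1 ∨ ((b : Cz z) : G) = t := by
  constructor
  · intro h
    exact (S.hk (inT b)).mp (congrArg Subtype.val h)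
  · intro h
    exact Subtype.ext ((S.hk (inT b)).mpr h)

theorem phi_surj : Function.Surjective (phi S) := by
  rintro ⟨y, hy⟩
  obtain ⟨y0, rfl⟩ := S.hπ y
  have h1 := Cfsg.Agent.Lib.Monster.Local.mem_Cz.mp hy
  have h2 : π (y0 * ⟨z, S.z_mem⟩ * y0⁻¹ * (⟨z, S.z_mem⟩ : Cz t)⁻¹) = 1 := by
    rw [map_mul, map_mul, map_mul, map_inv, map_inv]
    show π y0 * zbar S * (π y0)⁻¹ * (zbar S)⁻¹ = 1
    rw [h1]
    group
  rcases (S.hk _).mp h2 with h3 | h3
  · have h4 : (y0 : G) * z = z * y0 := by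
      have h5 : (y0 : G) * z * (y0 : G)⁻¹ * z⁻¹ = 1 := h3
      calc (y0 : G) * z = ((y0 : G) * z * (y0 : G)⁻¹ * z⁻¹) * (z * y0) := by group
        _ = z * y0 := by rw [h5, one_mul]
    have hm : y0.1 ∈ Cz z := Cfsg.Agent.Lib.Monster.Local.mem_Cz.mpr h4
    refine ⟨⟨⟨y0.1, hm⟩, y0.2⟩, ?_⟩
    apply Subtype.ext
    rfl
  · exfalso
    have h5 : (y0 : G) * z * (y0 : G)⁻¹ * z⁻¹ = t := h3
    apply S.not_conj_tz
    rw [isConj_iff]
    refine ⟨y0, ?_⟩
    calc (y0 : G) * z * (y0 : G)⁻¹ = ((y0 : G) * z * (y0 : G)⁻¹ * z⁻¹) * z := by group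
      _ = t * z := congrArg (· * z) h5

theorem ker_phi_le : (phi S).ker ≤ (kap S).ker := by
  intro b hb
  rw [MonoidHom.mem_ker, kap_eq_one_iff S]
  rcases (phi_eq_one_iff S).mp hb with h | h
  · have : (b : Cz z) = 1 := Subtype.ext h
    rw [this]
    exact Q.one_mem
  · have : (b : Cz z) = (a : Cz z) := Subtype.ext (h.trans S.ha.symm)
    rw [this]
    exact a.2

omit S in
/-- The map on the centralizer. -/
noncomputable def kapb (S : BS z t Q e ψ a π) : Cz (zbar S) →* Spor.Co2 :=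
  factor (phi S) (phi_surj S) (kap S) (ker_phi_le S)

theorem kapb_phi (b : Bz z t) : kapb S (phi S b) = kap S b := factor_apply _ _ _ _ _

theorem kapb_surj : Function.Surjective (kapb S) := by
  intro g
  obtain ⟨b, rfl⟩ := kap_surj S g
  exact ⟨phi S b, kapb_phi S b⟩

omit S in
/-- The new `Q`. -/
noncomputable def Qb (S : BS z t Q e ψ a π) : Subgroup (Cz (zbar S)) := (kapb S).ker

instance Qb_normal (S : BS z t Q e ψ a π) : (Qb S).Normal := by
  unfold Qb
  infer_instance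

theorem phi_mem_Qb {b : Bz z t} : phi S b ∈ Qb S ↔ (b : Cz z) ∈ Q := by
  unfold Qb
  rw [MonoidHom.mem_ker, kapb_phi, kap_eq_one_iff S]

/-- The new identification. -/
noncomputable def eb (S : BS z t Q e ψ a π) : (Cz (zbar S)) ⧸ Qb S ≃* Spor.Co2 :=
  QuotientGroup.quotientKerEquivOfSurjective (kapb S) (kapb_surj S)

theorem eb_mk (y : Cz (zbar S)) : eb S (QuotientGroup.mk y) = kapb S y := rfl

end BS

end Cfsg.Agent.Lib.Monster.Baby
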