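import Cfsg.Agent.Lib.Monster.Baby

/-!
# The section `C_C(t)/⟨t⟩`: extraspecial subgroup and generalized Fitting subgroup
-/

set_option autoImplicit false
set_option linter.unusedSectionVars false
set_option linter.unusedVariables false

open Cfsg

namespace Cfsg.Agent.Lib.Monster.Baby2

open Subgroup Cfsg.Agent.Lib.PGroups.Special Cfsg.Agent.Lib.PGroups.ClassTwo
  Cfsg.Agent.Lib.Monster.Form Cfsg.Agent.Lib.Monster.Local Cfsg.Agent.Lib.Monster.That
  Cfsg.Agent.Lib.Monster.Types Cfsg.Agent.Lib.Monster.Frame Cfsg.Agent.Lib.Monster.BabyLat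
  Cfsg.Agent.Lib.Monster.Baby Cfsg.Agent.Lib.Leech.Lat
open scoped commutatorElement

/-- **The generalized Fitting subgroup**. -/
theorem fstar {X : Type*} [Group X] [Finite X] (κ : X →* Spor.Co2) (hκ : Function.Surjective κ)
    (h2 : IsPGroup 2 κ.ker) (hC : centralizer (κ.ker : Set X) ≤ κ.ker) :
    generalizedFittingSubgroup X = κ.ker := by
  have := Fact.mk Nat.prime_two
  open Cfsg.Agent.Lib.CharP.Basic in
  have hle : κ.ker ≤ pCore 2 X := le_pCore inferInstance h2
  have hP := Cfsg.Agent.Lib.CharP.Basic.pCore_isPGroup 2 X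
  set T : Subgroup Co0 := ((pCore 2 X).map κ).map toCo0 with hT
  have hTbot : T = ⊥ := by
    refine Cfsg.Agent.Lib.Monster.Co2Core.eq_bot_of_norm32 (v := uL) sqNorm_uL ?_ ?_ ?_
    · rintro _ ⟨_, ⟨p, -, rfl⟩, rfl⟩
      exact toCo0_fix _
    · exact (hP.map κ).map toCo0
    · rintro l hl _ ⟨_, ⟨p, hp, rfl⟩, rfl⟩
      have hl' : (⟨l, l.2, hl⟩ : Spor.Co2) ∈ (⊤ : Subgroup Spor.Co2) := Subgroup.mem_top _
      obtain ⟨x, hx⟩ := hκ ⟨l, l.2, hl⟩
      have hx' : toCo0 (κ x) = l := by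
        rw [hx]
        rfl
      refine ⟨κ (x * p * x⁻¹), ⟨_, (pCore_normal 2 X).conj_mem p hp x, rfl⟩, ?_⟩
      rw [map_mul, map_mul, map_inv, map_mul, map_mul, map_inv, hx']
  have hge : pCore 2 X ≤ κ.ker := by
    intro p hp
    rw [MonoidHom.mem_ker]
    apply toCo0_inj
    have : toCo0 (κ p) ∈ T := ⟨_, ⟨p, hp, rfl⟩, rfl⟩
    rw [hTbot] at this
    rw [map_one]
    exact this
  have heq : pCore 2 X = κ.ker := le_antisymm hge hle
  have := Cfsg.Agent.Lib.CharP.Basic.generalizedFitting_eq_of_charP (p := 2) (X := X) (by rw [heq]; exact hC)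
  rw [this, heq]

variable {G : Type*} [Group G] [Finite G] {z t : G} {Q : Subgroup (Cz z)} [Q.Normal]
  {e : (Cz z) ⧸ Q ≃* Spor.Co1} {ψ : leechLattice → Q ⧸ center Q} {a : Q}
  {D : Type*} [Group D] {π : Cz t →* D}

/-- The kernel. -/
noncomputable abbrev Ak (S : BS z t Q e ψ a π) : Subgroup (Bz z t) := (kap S).ker

/-- Elements of the kernel as elements of `Q`. -/
noncomputable def toQ (S : BS z t Q e ψ a π) : Ak S →* Q where
  toFun x := ⟨(x.1 : Cz z), (kap_eq_one_iff S).mp x.2⟩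
  map_one' := rfl
  map_mul' _ _ := rfl

section

variable (S : BS z t Q e ψ a π)
include S

theorem toQ_inj : Function.Injective (toQ S) := by
  intro x y h
  have h1 : ((toQ S x) : Cz z) = (toQ S y : Cz z) := congrArg Subtype.val h
  exact Subtype.ext (Subtype.ext h1)

theorem toQ_comm (x : Ak S) : ((toQ S x : Cz z) : G) * t = t * ((toQ S x : Cz z) : G) := mem_Bz.mp x.1.2

theorem exists_toQ {q : Q} (hq : ((q : Cz z) : G) * t = t * ((q : Cz z) : G)) : ∃ x : Ak S, toQ S x = q :=
  ⟨⟨⟨q.1, mem_Bz.mpr hq⟩, (kap_eq_one_iff S).mpr q.2⟩, rfl⟩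

omit S in
/-- The map to the new `Q`. -/
noncomputable def phiA (S : BS z t Q e ψ a π) : Ak S →* Qb S :=
  MonoidHom.codRestrict ((phi S).comp (Ak S).subtype) (Qb S)
    (fun x => (phi_mem_Qb S).mpr ((kap_eq_one_iff S).mp x.2))

theorem phiA_surj : Function.Surjective (phiA S) := by
  rintro ⟨y, hy⟩
  obtain ⟨b, rfl⟩ := phi_surj S y
  have h1 : (b : Cz z) ∈ Q := (phi_mem_Qb S).mp hy
  exact ⟨⟨b, (kap_eq_one_iff S).mpr h1⟩, rfl⟩

theorem zC_comm : zC z * ⟨t, S.mem_Cz⟩ = ⟨t, S.mem_Cz⟩ * zC z :=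
  Subtype.ext (Cfsg.Agent.Lib.Monster.Local.mem_Cz.mp S.mem_Cz).symm

omit S in
/-- The element `z`. -/
def zA (S : BS z t Q e ψ a π) : Ak S :=
  ⟨⟨zC z, mem_Bz.mpr (Cfsg.Agent.Lib.Monster.Local.mem_Cz.mp S.mem_Cz).symm⟩, (kap_eq_one_iff S).mpr S.h.zC_mem⟩

omit S in
/-- The element `t`. -/
def tA (S : BS z t Q e ψ a π) : Ak S :=
  ⟨⟨a.1, mem_Bz.mpr (by
    have h1 := S.ha
    simp only [h1])⟩, (kap_eq_one_iff S).mpr a.2⟩

theorem toQ_zA : toQ S (zA S) = S.h.zQ := rfl
theorem toQ_tA : toQ S (tA S) = a := rfl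

theorem a_coe : ((a : Cz z) : G) = t := S.ha

theorem center_cases {q : Q} (hq : q ∈ center Q) : q = 1 ∨ q = S.h.zQ := by
  rcases (S.h.mem_center_iff q).mp hq with h | h
  · exact Or.inl (Subtype.ext h)
  · exact Or.inr (Subtype.ext h)

theorem a_sq : a ^ 2 = 1 := by
  apply Subtype.ext
  apply Subtype.ext
  show ((a : Cz z) : G) ^ 2 = 1
  rw [S.ha, S.ht2]

theorem zQ_mem : S.h.zQ ∈ center Q := (S.h.mem_center_iff _).mpr (Or.inr rfl)

theorem zQ_ne : S.h.zQ ≠ 1 := by
  intro h
  apply S.z_one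
  exact congrArg (fun y : Q => ((y : Cz z) : G)) h

theorem a_ne_zQ : a ≠ S.h.zQ := fun h => S.hnc (h ▸ zQ_mem S)

theorem a_ne_one : a ≠ 1 := by
  intro h
  apply S.hnc
  rw [h]
  exact Subgroup.one_mem _

theorem Ak_pgroup : IsPGroup 2 (Ak S) := S.h.hE.1.1.of_injective (toQ S) (toQ_inj S)

theorem Ak_comm (x y : Ak S) : ⁅x, y⁆ = 1 ∨ ⁅x, y⁆ = zA S := by
  have := Fact.mk Nat.prime_two
  have h1 := IsSpecial.comm_mem S.h.hE.1 (toQ S x) (toQ S y)
  rw [← map_commutatorElement] at h1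
  rcases center_cases S h1 with h2 | h2
  · left
    exact toQ_inj S (h2.trans (map_one _).symm)
  · right
    exact toQ_inj S h2

theorem Ak_sq (x : Ak S) : x ^ 2 = 1 ∨ x ^ 2 = zA S := by
  have := Fact.mk Nat.prime_two
  have h1 := IsSpecial.pow_mem S.h.hE.1 (toQ S x)
  rw [← map_pow] at h1
  rcases center_cases S h1 with h2 | h2
  · left
    exact toQ_inj S (h2.trans (map_one _).symm)
  · right
    exact toQ_inj S h2

theorem zA_center : zA S ∈ center (Ak S) := by
  rw [Subgroup.mem_center_iff]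
  intro x
  apply toQ_inj S
  rw [map_mul, map_mul]
  have h1 := (Subgroup.mem_center_iff.mp (zQ_mem S)) (toQ S x)
  exact h1

theorem tA_center : tA S ∈ center (Ak S) := by
  rw [Subgroup.mem_center_iff]
  intro x
  apply toQ_inj S
  rw [map_mul, map_mul, toQ_tA]
  apply Subtype.ext
  apply Subtype.ext
  show ((toQ S x : Cz z) : G) * ((a : Cz z) : G) = ((a : Cz z) : G) * ((toQ S x : Cz z) : G)
  have h1 := toQ_comm S x
  simp only [a_coe S]
  exact h1

theorem Ak_center {x : Ak S} (hx : x ∈ center (Ak S)) : x = 1 ∨ x = zA S ∨ x = tA S ∨ x = tA S * zA S := by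
  have h1 := center_of_centralizer S.h.hE (a := a) (x := toQ S x) (by
    intro y hy
    have hy2 : ((y : Cz z) : G) * t = t * ((y : Cz z) : G) := by
      have h2 : y * a = a * y := (commutatorElement_eq_one_iff_mul_comm.mp hy).symm
      have h3 : ((y : Cz z) : G) * ((a : Cz z) : G) = ((a : Cz z) : G) * ((y : Cz z) : G) :=
        congrArg (fun w : Q => ((w : Cz z) : G)) h2
      simpa only [a_coe S] using h3
    obtain ⟨w, rfl⟩ := exists_toQ S hy2
    rw [← map_commutatorElement, commutatorElement_eq_one_iff_mul_comm.mpr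
      ((Subgroup.mem_center_iff.mp hx) w).symm, map_one])
  rcases h1 with h1 | h1
  · rcases center_cases S h1 with h2 | h2
    · left
      exact toQ_inj S (h2.trans (map_one _).symm)
    · right; left
      exact toQ_inj S h2
  · have h3 : a * a = 1 := by
      rw [← sq]
      exact a_sq S
    rcases center_cases S h1 with h2 | h2
    · right; right; left
      apply toQ_inj S
      rw [toQ_tA]
      calc toQ S x = a * a * toQ S x := by rw [h3, one_mul]
        _ = a * (a * toQ S x) := by group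
        _ = a := by rw [h2, mul_one]
    · right; right; right
      apply toQ_inj S
      rw [map_mul, toQ_tA, toQ_zA]
      calc toQ S x = a * a * toQ S x := by rw [h3, one_mul]
        _ = a * (a * toQ S x) := by group
        _ = a * S.h.zQ := by rw [h2]

theorem zA_ne_one : zA S ≠ 1 := fun h => zQ_ne S (congrArg (toQ S) h)

theorem tA_ne_zA : tA S ≠ zA S := fun h => a_ne_zQ S (congrArg (toQ S) h)

theorem tA_ne_one : tA S ≠ 1 := fun h => a_ne_one S (congrArg (toQ S) h)

theorem phiA_eq_one_iff (x : Ak S) : phiA S x = 1 ↔ x = 1 ∨ x = tA S := by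
  constructor
  · intro h
    have h1 : phi S x.1 = 1 := congrArg Subtype.val h
    rcases (phi_eq_one_iff S).mp h1 with h2 | h2
    · left
      exact Subtype.ext (Subtype.ext (Subtype.ext h2))
    · right
      exact Subtype.ext (Subtype.ext (Subtype.ext (h2.trans S.ha.symm)))
  · rintro (rfl | rfl)
    · exact map_one _
    · apply Subtype.ext
      exact (phi_eq_one_iff S).mpr (Or.inr S.ha)

theorem Qb_facts : (∀ y : Qb S, y ∈ center (Qb S) ↔ y = 1 ∨ y = phiA S (zA S)) ∧ phiA S (zA S) ≠ 1 ∧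
    ExtraLike 2 (Qb S) :=
  extra_quot (phiA S) (phiA_surj S) (zA S) (tA S) (Ak_pgroup S) (zA_center S) (zA_ne_one S)
    (tA_ne_zA S) (tA_ne_one S) (phiA_eq_one_iff S) (Ak_comm S) (Ak_sq S) (fun x hx => Ak_center S hx)
    (tA_center S)

theorem card_Ak : Nat.card (Ak S) = 2 ^ 24 := by
  have := Fact.mk Nat.prime_two
  have hL := extraLike_of_isExtraspecial S.h.hE
  have h1 := card_centralizer hL S.hnc
  rw [S.h.hcard] at h1
  have h2 : Nat.card (Ak S) = Nat.card (centralizer ({a} : Set Q)) := by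
    have hf : ∀ x : Ak S, toQ S x ∈ centralizer ({a} : Set Q) := by
      intro x
      rw [mem_centralizer_iff]
      intro c hc
      rw [Set.mem_singleton_iff] at hc
      rw [hc]
      apply Subtype.ext
      apply Subtype.ext
      show ((a : Cz z) : G) * ((toQ S x : Cz z) : G) = ((toQ S x : Cz z) : G) * ((a : Cz z) : G)
      have h3 := toQ_comm S x
      simp only [a_coe S]
      exact h3.symm
    refine Nat.card_congr (Equiv.ofBijective (fun x => (⟨toQ S x, hf x⟩ : centralizer ({a} : Set Q))) ⟨?_, ?_⟩)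
    · intro x y h
      exact toQ_inj S (congrArg Subtype.val h)
    · intro y
      have h3 := (mem_centralizer_iff.mp y.2) a rfl
      have h4 : ((a : Cz z) : G) * ((y.1 : Cz z) : G) = ((y.1 : Cz z) : G) * ((a : Cz z) : G) :=
        congrArg (fun w : Q => ((w : Cz z) : G)) h3
      simp only [a_coe S] at h4
      obtain ⟨w, hw⟩ := exists_toQ S (q := y.1) h4.symm
      exact ⟨w, Subtype.ext hw⟩
  rw [h2]
  omega

variable [Finite D]

theorem card_Qb : Nat.card (Qb S) = 2 ^ 23 := by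
  have h1 := Subgroup.card_eq_card_quotient_mul_card_subgroup (phiA S).ker
  have h2 : Nat.card (Ak S ⧸ (phiA S).ker) = Nat.card (Qb S) :=
    Nat.card_congr (QuotientGroup.quotientKerEquivOfSurjective _ (phiA_surj S)).toEquiv
  have h3 : Nat.card (phiA S).ker = 2 := by
    rw [Nat.card_eq_two_iff' (1 : (phiA S).ker)]
    refine ⟨⟨tA S, (phiA_eq_one_iff S _).mpr (Or.inr rfl)⟩, fun h => tA_ne_one S (congrArg Subtype.val h), ?_⟩
    rintro ⟨x, hx⟩ hne
    apply Subtype.ext
    rcases (phiA_eq_one_iff S x).mp hx with h4 | h4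
    · exact absurd (Subtype.ext h4) hne
    · exact h4
  rw [h2, h3, card_Ak S] at h1
  omega

theorem Qb_extra : IsExtraspecial 2 (Qb S) := by
  have := Fact.mk Nat.prime_two
  obtain ⟨h1, h2, h3⟩ := Qb_facts S
  apply h3.isExtraspecial
  intro hc
  have h4 : center (Qb S) = ⊤ := by
    rw [eq_top_iff]
    intro x _
    rw [Subgroup.mem_center_iff]
    intro g
    exact hc.is_comm.comm _ _
  have h5 := h3.card_center
  rw [h4, Nat.card_congr Subgroup.topEquiv.toEquiv, card_Qb S] at h5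
  norm_num at h5

theorem zbar_order : orderOf (zbar S) = 2 := by
  apply orderOf_eq_prime
  · unfold zbar
    rw [← map_pow]
    have : (⟨z, S.z_mem⟩ : Cz t) ^ 2 = 1 := Subtype.ext S.z_sq
    rw [this, map_one]
  · intro h
    rcases (S.hk _).mp h with h1 | h1
    · exact S.z_one h1
    · exact S.t_ne_z h1.symm

/-- Centralizing the new `Q`. -/
theorem centralizer_Qb : centralizer (Qb S : Set (Cz (zbar S))) ≤ Qb S := by
  intro y hy
  obtain ⟨b, rfl⟩ := phi_surj S y
  have hker : toCo0 (kap S b) ∈ KerU := by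
    refine ⟨toCo0_fix _, fun x hx => ?_⟩
    obtain ⟨q, hq⟩ := exists_lift x ψ
    have hqt := (S.comm_t hq).mpr hx
    obtain ⟨w, rfl⟩ := exists_toQ S hqt
    have h1 := kap_smul S b x _ hq
    have hcomm : ((phiA S w : Qb S) : Cz (zbar S)) ∈ Qb S := (phiA S w).2
    have h2 := (mem_centralizer_iff.mp hy) _ hcomm
    -- the commutator
    have h3 : phi S ⁅b, w.1⁆ = 1 := by
      rw [map_commutatorElement, commutatorElement_eq_one_iff_mul_comm]
      exact h2.symm
    set g : Co0 := toCo0 (kap S b) with hg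
    have hgx : ψ (g • x) = QuotientGroup.mk ⟨(b : Cz z) * (toQ S w : Cz z) * (b : Cz z)⁻¹,
        (inferInstance : Q.Normal).conj_mem _ (toQ S w).2 _⟩ := h1
    have hsum : ψ (g • x - x) * ψ x = ψ (g • x) := by
      rw [← S.h.hψ.1, sub_add_cancel]
    apply (S.psi_inM).mp
    rcases (phi_eq_one_iff S).mp h3 with h4 | h4
    · left
      have h5 : (⟨(b : Cz z) * (toQ S w : Cz z) * (b : Cz z)⁻¹,
          (inferInstance : Q.Normal).conj_mem _ (toQ S w).2 _⟩ : Q) = toQ S w := by
        apply Subtype.ext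
        apply Subtype.ext
        show ((b : Cz z) : G) * ((toQ S w : Cz z) : G) * ((b : Cz z) : G)⁻¹ = ((toQ S w : Cz z) : G)
        have h6 : ((b : Cz z) : G) * ((w.1 : Cz z) : G) * ((b : Cz z) : G)⁻¹ * ((w.1 : Cz z) : G)⁻¹ = 1 := h4
        have h7 := mul_inv_eq_one.mp h6
        exact h7
      rw [h5, ← hq] at hgx
      rw [hgx] at hsum
      simpa using hsum
    · right
      have h5 : (⟨(b : Cz z) * (toQ S w : Cz z) * (b : Cz z)⁻¹,
          (inferInstance : Q.Normal).conj_mem _ (toQ S w).2 _⟩ : Q) = a * toQ S w := by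
        apply Subtype.ext
        apply Subtype.ext
        show ((b : Cz z) : G) * ((toQ S w : Cz z) : G) * ((b : Cz z) : G)⁻¹ = ((a : Cz z) : G) * ((toQ S w : Cz z) : G)
        have h6 : ((b : Cz z) : G) * ((w.1 : Cz z) : G) * ((b : Cz z) : G)⁻¹ * ((w.1 : Cz z) : G)⁻¹ = t := h4
        have h7 := mul_inv_eq_iff_eq_mul.mp h6
        simp only [a_coe S]
        exact h7
      rw [h5] at hgx
      have h8 : (QuotientGroup.mk (a * toQ S w) : Q ⧸ center Q) = ψ uL * ψ x := by
        rw [S.hu, hq]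
        rfl
      rw [hgx, h8] at hsum
      exact mul_right_cancel hsum
  rw [KerU_eq_bot, Subgroup.mem_bot] at hker
  have h1 : kap S b = 1 := toCo0_inj (hker.trans (map_one _).symm)
  exact (phi_mem_Qb S).mpr ((kap_eq_one_iff S).mp h1)

theorem Qb_pgroup : IsPGroup 2 (kapb S).ker := (Ak_pgroup S).of_surjective (phiA S) (phiA_surj S)

theorem fitting_eq : generalizedFittingSubgroup (Cz (zbar S)) = Qb S :=
  fstar (kapb S) (kapb_surj S) (Qb_pgroup S) (centralizer_Qb S)

end

/-! ### The map on `u^⊥` -/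

/-- Representatives. -/
def Rep (S : BS z t Q e ψ a π) (x : L) (y : Qb S) : Prop :=
  ∃ w : Ak S, phiA S w = y ∧ ψ x = QuotientGroup.mk (toQ S w)

section

variable (S : BS z t Q e ψ a π)
include S

theorem rep_exists {x : L} (hx : Perp x) : ∃ y, Rep S x y := by
  obtain ⟨q, hq⟩ := exists_lift x ψ
  obtain ⟨w, rfl⟩ := exists_toQ S ((S.comm_t hq).mpr hx)
  exact ⟨_, w, rfl, hq⟩

theorem rep_unique {x : L} {y y' : Qb S} (h : Rep S x y) (h' : Rep S x y') :
    y' = y ∨ y' = y * phiA S (zA S) := by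
  obtain ⟨w, rfl, hw⟩ := h
  obtain ⟨w', rfl, hw'⟩ := h'
  rcases S.h.mk_eq_iff.mp (hw.symm.trans hw') with h1 | h1
  · left
    rw [toQ_inj S h1]
  · right
    have h2 : w' = w * zA S := toQ_inj S (by rw [map_mul, h1, toQ_zA])
    rw [h2, map_mul]

theorem rep_mul_z {x : L} {y : Qb S} (h : Rep S x y) : Rep S x (y * phiA S (zA S)) := by
  obtain ⟨w, rfl, hw⟩ := h
  refine ⟨w * zA S, map_mul _ _ _, ?_⟩
  rw [hw, map_mul, toQ_zA]
  exact S.h.mk_eq_iff.mpr (Or.inr rfl)

theorem rep_add {x x' : L} {y y' : Qb S} (h : Rep S x y) (h' : Rep S x' y') : Rep S (x + x') (y * y') := by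
  obtain ⟨w, rfl, hw⟩ := h
  obtain ⟨w', rfl, hw'⟩ := h'
  refine ⟨w * w', map_mul _ _ _, ?_⟩
  rw [S.h.hψ.1, hw, hw', map_mul]
  rfl

theorem rep_of (y : Qb S) : ∃ x, Perp x ∧ Rep S x y := by
  obtain ⟨w, rfl⟩ := phiA_surj S y
  obtain ⟨x, hx⟩ := exists_psi S.h (toQ S w)
  exact ⟨x, (S.comm_t hx).mp (toQ_comm S w), w, rfl, hx⟩

theorem rep_conj {x : L} {y : Qb S} (h : Rep S x y) (b : Bz z t) :
    Rep S (kap S b • x) ⟨phi S b * (y : Cz (zbar S)) * (phi S b)⁻¹,
      (Qb_normal S).conj_mem _ y.2 _⟩ := by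
  obtain ⟨w, rfl, hw⟩ := h
  refine ⟨⟨b * w.1 * b⁻¹, ?_⟩, ?_, ?_⟩
  · exact ((kap S).normal_ker).conj_mem _ w.2 b
  · apply Subtype.ext
    show phi S (b * w.1 * b⁻¹) = _
    rw [map_mul, map_mul, map_inv]
    rfl
  · exact kap_smul S b x _ hw

/-- The trivial classes. -/
theorem rep_center {x : L} {y : Qb S} (h : Rep S x y) : y ∈ center (Qb S) ↔ InM x := by
  obtain ⟨hc, -, -⟩ := Qb_facts S
  rw [hc]
  obtain ⟨w, rfl, hw⟩ := h
  rw [← S.psi_inM, S.hu, hw]
  constructor
  · rintro (h1 | h1)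
    · rcases (phiA_eq_one_iff S w).mp h1 with rfl | rfl
      · left
        rw [map_one]
        rfl
      · right
        rfl
    · have h2 : phiA S (w * (zA S)⁻¹) = 1 := by
        rw [map_mul, map_inv, h1, mul_inv_cancel]
      rcases (phiA_eq_one_iff S _).mp h2 with h3 | h3
      · left
        have h4 : w = zA S := mul_inv_eq_one.mp h3
        rw [h4, toQ_zA]
        exact (QuotientGroup.eq_one_iff _).mpr (zQ_mem S)
      · right
        have h4 : w = tA S * zA S := mul_inv_eq_iff_eq_mul.mp h3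
        rw [h4, map_mul, toQ_tA, toQ_zA]
        exact (S.h.mk_eq_iff.mpr (Or.inr rfl)).symm
  · rintro (h1 | h1)
    · have h2 : toQ S w ∈ center Q := (QuotientGroup.eq_one_iff _).mp h1
      rcases center_cases S h2 with h3 | h3
      · left
        rw [toQ_inj S (h3.trans (map_one _).symm), map_one]
      · right
        have h4 : w = zA S := toQ_inj S h3
        rw [h4]
    · rcases S.h.mk_eq_iff.mp h1.symm with h3 | h3
      · left
        have h4 : w = tA S := toQ_inj S h3
        rw [h4]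
        exact (phiA_eq_one_iff S _).mpr (Or.inr rfl)
      · right
        have h4 : w = tA S * zA S := toQ_inj S (by rw [map_mul]; exact h3)
        rw [h4, map_mul, (phiA_eq_one_iff S (tA S)).mpr (Or.inr rfl), one_mul]

end

omit [Finite G] in
/-- Membership in the perpendicular subgroup. -/
theorem perp_of_mem (x : leechPerpU) : Perp (x : L) := x.2

section

variable (S : BS z t Q e ψ a π)

/-- The map. -/
noncomputable def psib (S : BS z t Q e ψ a π) (x : leechPerpU) : Qb S ⧸ center (Qb S) :=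
  QuotientGroup.mk (rep_exists S (perp_of_mem x)).choose

include S

theorem psib_eq_iff {x : leechPerpU} {y : Qb S} : psib S x = QuotientGroup.mk y ↔ Rep S x y := by
  have h0 := (rep_exists S (perp_of_mem x)).choose_spec
  set y0 := (rep_exists S (perp_of_mem x)).choose with hy0
  obtain ⟨hc, -, -⟩ := Qb_facts S
  show (QuotientGroup.mk y0 : Qb S ⧸ center (Qb S)) = QuotientGroup.mk y ↔ _
  rw [QuotientGroup.eq]
  constructor
  · intro h
    rcases (hc _).mp h with h1 | h1
    · have h2 : y = y0 := (inv_mul_eq_one.mp h1).symm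
      rw [h2]
      exact h0
    · have h2 : y = y0 * phiA S (zA S) := by
        rw [← h1]
        group
      rw [h2]
      exact rep_mul_z S h0
  · intro h
    rcases rep_unique S h0 h with h1 | h1
    · rw [h1]
      simp
    · rw [h1]
      rw [hc]
      right
      group

/-- **The module isomorphism.** -/
theorem psib_iso : IsLeechPerpModTwoIso (Qb S) (eb S) (psib S) := by
  have hmk : ∀ x : leechPerpU, ∃ y, Rep S x y ∧ psib S x = QuotientGroup.mk y := fun x =>
    ⟨_, (rep_exists S (perp_of_mem x)).choose_spec, rfl⟩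
  refine ⟨?_, ?_, ?_, ?_⟩
  · intro x x'
    obtain ⟨y, hy, h1⟩ := hmk x
    obtain ⟨y', hy', h2⟩ := hmk x'
    rw [h1, h2]
    exact (psib_eq_iff S).mpr (rep_add S hy hy')
  · intro c
    obtain ⟨y, rfl⟩ := QuotientGroup.mk_surjective c
    obtain ⟨x, hx, hr⟩ := rep_of S y
    exact ⟨⟨x, hx⟩, (psib_eq_iff S).mpr hr⟩
  · intro x
    obtain ⟨y, hy, h1⟩ := hmk x
    rw [h1, QuotientGroup.eq_one_iff, rep_center S hy]
    rfl
  · intro h g hg x x' hxx' q hq
    obtain ⟨b, rfl⟩ := phi_surj S h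
    have h1 : kap S b = g := by
      rw [← hg, eb_mk, kapb_phi]
    apply (psib_eq_iff S).mpr
    have h2 := rep_conj S ((psib_eq_iff S).mp hq) b
    rw [h1] at h2
    rw [← hxx']
    exact h2

end

end Cfsg.Agent.Lib.Monster.Baby2
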