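import Cfsg.Agent.Lib.Monster.Co2Core
import Cfsg.Agent.Lib.Golay.Dodecad
import Cfsg.Prelude.Def_Transfer

/-!
# The monomial group: normal 2-subgroups and the structure of its image in the first Conway group
-/

set_option autoImplicit false
set_option linter.unusedSectionVars false

namespace Cfsg.Agent.Lib.Monster.Frame

open Cfsg Cfsg.Agent.Lib.Golay.Core Cfsg.Agent.Lib.Golay.Perm Cfsg.Agent.Lib.Golay.Stab
  Cfsg.Agent.Lib.Leech.Basic Cfsg.Agent.Lib.Leech.Even Cfsg.Agent.Lib.Leech.Lat Cfsg.Agent.Lib.Leech.Mon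
  Cfsg.Agent.Lib.Leech.Packed Cfsg.Agent.Lib.Leech.Vec
  Cfsg.Agent.Lib.Leech.Reach Cfsg.Agent.Lib.Leech.NF Cfsg.Agent.Lib.Leech.NFBase
  Cfsg.Agent.Lib.Leech.Order Cfsg.Agent.Lib.Monster.Co2Core
open scoped Pointwise

/-- The sign changes. -/
noncomputable def DD : Subgroup Co0 := (permHom.ker).map NN.subtype

theorem mem_DD {g : Co0} : g ∈ DD ↔ ∃ (c : Finset GolayPt) (hc : c ∈ Sup), g = monG 1 M24.one_mem c hc := by
  constructor
  · rintro ⟨⟨u, hu⟩, hk, rfl⟩
    obtain ⟨h1, d, hd, h2⟩ := permOf_spec ⟨u, hu⟩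
    have h3 : permOf ⟨u, hu⟩ = 1 := hk
    exact ⟨d, hd, h2.trans (monG_congr h3 rfl)⟩
  · rintro ⟨c, hc, rfl⟩
    refine ⟨⟨monG 1 M24.one_mem c hc, monG_mem_NN _ _ _ _⟩, ?_, rfl⟩
    show permOf _ = 1
    exact permOf_eq (σ := 1) (hσ := M24.one_mem) (c := c) (hc := hc) rfl

theorem monG_one_empty : monG 1 M24.one_mem ∅ empty_mem_Sup = 1 := by
  apply ext_smul
  intro v
  apply Subtype.ext
  funext i
  show signedPerm 1 ∅ v i = v.1 i
  rw [signedPerm_apply]
  simp
  rfl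

theorem negG_eq : negG = monG 1 M24.one_mem Finset.univ univ_mem_Sup := by
  apply ext_smul
  intro v
  apply Subtype.ext
  funext i
  show -v.1 i = signedPerm 1 Finset.univ v i
  rw [signedPerm_apply]
  simp
  rfl

theorem negG_mem_DD : negG ∈ DD := mem_DD.mpr ⟨_, _, negG_eq⟩

theorem DD_le_NN : DD ≤ NN := by
  rintro _ ⟨u, -, rfl⟩
  exact u.2

/-- The permutations. -/
noncomputable def liftM : M24 →* Co0 where
  toFun σ := monG σ.1 σ.2 ∅ empty_mem_Sup
  map_one' := monG_one_empty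
  map_mul' σ τ := by
    show monG (σ.1 * τ.1) _ ∅ _ = _
    rw [monG_mul]
    apply monG_congr rfl
    simp

@[simp] theorem liftM_apply (σ : M24) : liftM σ = monG σ.1 σ.2 ∅ empty_mem_Sup := rfl

/-- The complement. -/
noncomputable def KK : Subgroup Co0 := liftM.range

theorem KK_le_NN : KK ≤ NN := by
  rintro _ ⟨σ, rfl⟩
  exact monG_mem_NN σ.1 σ.2 ∅ empty_mem_Sup

theorem monG_decomp (σ : Equiv.Perm GolayPt) (hσ : σ ∈ M24) (c : Finset GolayPt) (hc : c ∈ Sup) :
    monG σ hσ c hc = monG 1 M24.one_mem c hc * monG σ hσ ∅ empty_mem_Sup := by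
  rw [monG_mul]
  apply monG_congr
  · simp
  · ext x
    simp [Finset.mem_symmDiff]

theorem conj_sign {τ : Equiv.Perm GolayPt} (hτ : τ ∈ M24) (c : Finset GolayPt) (hc : c ∈ Sup) :
    monG τ hτ ∅ empty_mem_Sup * monG 1 M24.one_mem c hc * (monG τ hτ ∅ empty_mem_Sup)⁻¹ =
      monG 1 M24.one_mem (τ • c) (perm_mem_supports hτ hc) := by
  rw [monG_inv_eq, monG_mul, monG_mul]
  apply monG_congr
  · group
  · ext x
    simp [Finset.mem_symmDiff]

theorem sign_mul (c c' : Finset GolayPt) (hc : c ∈ Sup) (hc' : c' ∈ Sup) :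
    monG 1 M24.one_mem c hc * monG 1 M24.one_mem c' hc' =
      monG 1 M24.one_mem (symmDiff c c') (symmDiff_mem_Sup hc hc') := by
  rw [monG_mul]
  apply monG_congr
  · simp
  · ext x
    simp [Finset.mem_symmDiff]

section Normal

variable {T : Subgroup Co0} (hTN : T ≤ NN) (hT2 : IsPGroup 2 T)
  (hnorm : ∀ n ∈ NN, ∀ t ∈ T, n * t * n⁻¹ ∈ T)
include hTN hT2 hnorm

theorem perm_fix' {t : Co0} (ht : t ∈ T) {σ : Equiv.Perm GolayPt} {hσ : σ ∈ M24} {c : Finset GolayPt}
    {hc : c ∈ Sup} (h : t = monG σ hσ c hc) (p : GolayPt) : σ p = p := by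
  classical
  by_contra hne
  set S : Subgroup (Equiv.Perm GolayPt) := (T.subgroupOf NN).map permHom with hS
  have hT' : IsPGroup 2 (T.subgroupOf NN) :=
    hT2.of_equiv (Subgroup.subgroupOfEquivOfLe hTN).symm
  have hS2 : IsPGroup 2 S := hT'.map permHom
  set q := σ p with hq
  have horb : MulAction.orbit S p = (Finset.univ : Finset GolayPt) := by
    ext r
    simp only [MulAction.mem_orbit_iff, Finset.coe_univ, Set.mem_univ, iff_true]
    by_cases hrp : r = p
    · exact ⟨1, by rw [hrp]; rfl⟩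
    obtain ⟨τ, hτ, h3, h4⟩ := exists_map_two (p := p) (q := q) (p' := p) (q' := r)
      (fun h => hne h.symm) (fun h => hrp h.symm)
    have ht' := hnorm _ (monG_mem_NN τ hτ ∅ empty_mem_Sup) t ht
    refine ⟨⟨τ * σ * τ⁻¹, ?_⟩, ?_⟩
    · refine ⟨⟨_, hTN ht'⟩, ht', ?_⟩
      show permHom _ = _
      have e1 : (⟨monG τ hτ ∅ empty_mem_Sup * t * (monG τ hτ ∅ empty_mem_Sup)⁻¹, hTN ht'⟩ : NN) =
          ⟨monG τ hτ ∅ empty_mem_Sup, monG_mem_NN _ _ _ _⟩ * ⟨t, hTN ht⟩ *
            ⟨monG τ hτ ∅ empty_mem_Sup, monG_mem_NN _ _ _ _⟩⁻¹ := rfl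
      rw [e1, map_mul, map_mul, map_inv]
      simp only [permHom_apply]
      have e3 : permOf ⟨monG τ hτ ∅ empty_mem_Sup, monG_mem_NN _ _ _ _⟩ = τ :=
        permOf_eq (σ := τ) (hσ := hτ) (c := ∅) (hc := empty_mem_Sup) rfl
      rw [e3, permOf_eq (g := ⟨t, hTN ht⟩) h]
    · show (τ * σ * τ⁻¹) p = r
      have e2 : τ⁻¹ p = p := by
        rw [Equiv.Perm.inv_eq_iff_eq, h3]
      show τ (σ (τ⁻¹ p)) = r
      rw [e2, ← hq, h4]
  obtain ⟨n, hn⟩ := hS2.card_orbit p
  rw [horb] at hn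
  have h22 : (Finset.univ : Finset GolayPt).card = 24 := card_golayPt
  rw [Nat.card_coe_set_eq, Set.ncard_coe_finset, h22] at hn
  have h5 : n ≤ 4 ∨ 5 ≤ n := by omega
  rcases h5 with h5 | h5
  · interval_cases n <;> omega
  · have : 2 ^ 5 ≤ 2 ^ n := Nat.pow_le_pow_right (by norm_num) h5
    omega

theorem le_DD : T ≤ DD := by
  intro t ht
  obtain ⟨h1, d, hd, h2⟩ := permOf_spec ⟨t, hTN ht⟩
  have h3 : permOf ⟨t, hTN ht⟩ = 1 := Equiv.ext fun p => perm_fix' hTN hT2 hnorm ht h2 p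
  exact mem_DD.mpr ⟨d, hd, h2.trans (monG_congr h3 rfl)⟩

/-- The octad in the dodecad case. -/
def Pd : ℕ := 598752353734259946236635121811751650

omit hTN hT2 hnorm in
theorem Pd_ok : checkAut Pd = true := by decide +kernel

omit hTN hT2 hnorm in
theorem Pd_map : Cfsg.Agent.Lib.Golay.Dodecad.d0 ^^^ (mapMask Pd Cfsg.Agent.Lib.Golay.Dodecad.d0) = 3216208 := by
  decide +kernel

omit hTN hT2 hnorm in
theorem octad_X : setOf 3216208 ∈ octads :=
  (setOf_mem_octads_iff (by norm_num)).mpr (by decide +kernel)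

omit hTN hT2 hnorm in
theorem basis_octads : ∀ b ∈ basis, b < 2 ^ 24 ∧ isCode b = true ∧ pop b = 8 := by decide +kernel

omit hTN hT2 hnorm in
theorem setOf_zero : setOf 0 = ∅ := by
  ext x
  simp [mem_setOf]

/-- **Normal 2-subgroups of the monomial group containing a non-central element are the sign changes.** -/
theorem eq_DD (hneg : negG ∈ T) (hne : ∃ t ∈ T, t ∉ Subgroup.center Co0) : T = DD := by
  classical
  apply le_antisymm (le_DD hTN hT2 hnorm)
  let W : Finset GolayPt → Prop := fun c => ∃ hc : c ∈ Sup, monG 1 M24.one_mem c hc ∈ T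
  have W_symm : ∀ {c c'}, W c → W c' → W (symmDiff c c') := by
    rintro c c' ⟨hc, h1⟩ ⟨hc', h2⟩
    refine ⟨symmDiff_mem_Sup hc hc', ?_⟩
    rw [← sign_mul c c' hc hc']
    exact T.mul_mem h1 h2
  have W_act : ∀ {c} {τ : Equiv.Perm GolayPt}, τ ∈ M24 → W c → W (τ • c) := by
    rintro c τ hτ ⟨hc, h1⟩
    refine ⟨perm_mem_supports hτ hc, ?_⟩
    rw [← conj_sign hτ c hc]
    exact hnorm _ (monG_mem_NN _ _ _ _) _ h1
  have W_univ : W Finset.univ := ⟨univ_mem_Sup, negG_eq ▸ hneg⟩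
  have W_empty : W ∅ := ⟨empty_mem_Sup, by rw [monG_one_empty]; exact T.one_mem⟩
  -- a nontrivial word
  obtain ⟨t, ht, htc⟩ := hne
  obtain ⟨c0, hc0, rfl⟩ := mem_DD.mp (le_DD hTN hT2 hnorm ht)
  have hW0 : W c0 := ⟨hc0, ht⟩
  have hc1 : c0 ≠ ∅ := by
    rintro rfl
    apply htc
    rw [monG_one_empty]
    exact Subgroup.one_mem _
  have hc2 : c0 ≠ Finset.univ := by
    rintro rfl
    apply htc
    rw [← negG_eq]
    exact Cfsg.Agent.Lib.Leech.Center.negG_mem_center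
  -- an octad
  have W_oct : ∃ o ∈ octads, W o := by
    rcases card_Sup_cases hc0 with h | h | h | h | h
    · exact absurd (Finset.card_eq_zero.mp h) hc1
    · exact ⟨c0, ⟨hc0, h⟩, hW0⟩
    · have hd : c0 ∈ dodecads := ⟨hc0, h⟩
      obtain ⟨σ, hσ, h1⟩ := move_dodecad hd
      have h2 : W (setOf Cfsg.Agent.Lib.Golay.Dodecad.d0) := by
        rw [← h1]
        exact W_act hσ hW0
      have h3 : W (g Pd • setOf Cfsg.Agent.Lib.Golay.Dodecad.d0) := W_act (g_mem_M24 Pd_ok) h2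
      rw [smul_setOf (checkAut_valid Pd_ok)] at h3
      have h4 := W_symm h2 h3
      rw [← setOf_xor, Pd_map] at h4
      exact ⟨_, octad_X, h4⟩
    · have h5 : W (symmDiff c0 Finset.univ) := W_symm hW0 W_univ
      refine ⟨_, ⟨symmDiff_mem_Sup hc0 univ_mem_Sup, ?_⟩, h5⟩
      have h6 : symmDiff c0 Finset.univ = c0ᶜ := by
        ext x
        simp [Finset.mem_symmDiff]
      rw [h6, Finset.card_compl, h, card_golayPt]
    · exact absurd (Finset.eq_univ_of_card c0 (by rw [h]; exact card_golayPt.symm)) hc2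
  obtain ⟨o, ho, hWo⟩ := W_oct
  obtain ⟨σ, hσ, h1⟩ := move_octad ho
  have hO0 : W (setOf Cfsg.Agent.Lib.Golay.M24.O0) := by
    rw [← h1]
    exact W_act hσ hWo
  have W_all : ∀ o' ∈ octads, W o' := by
    intro o' ho'
    obtain ⟨σ', hσ', h2⟩ := move_octad ho'
    have h3 := W_act (M24.inv_mem hσ') hO0
    rw [← h2, inv_smul_smul] at h3
    exact h3
  -- all words
  have W_enc : ∀ (l : List ℕ), (∀ b ∈ l, b ∈ basis) → ∀ m, W (setOf (encAux l m)) := by
    intro l
    induction l with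
    | nil =>
      intro _ m
      rw [encAux_nil, setOf_zero]
      exact W_empty
    | cons b l ih =>
      intro hl m
      rw [encAux_cons, setOf_xor]
      refine W_symm ?_ (ih (fun x hx => hl x (by simp [hx])) _)
      rcases Nat.mod_two_eq_zero_or_one m with h | h
      · rw [h, zero_mul, setOf_zero]
        exact W_empty
      · rw [h, one_mul]
        obtain ⟨h1, h2, h3⟩ := basis_octads b (hl b (by simp))
        exact W_all _ ((setOf_mem_octads_iff h1).mpr ⟨h2, h3⟩)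
  intro d hd
  obtain ⟨c, hc, rfl⟩ := mem_DD.mp hd
  obtain ⟨m, hm, rfl⟩ := mem_supports_iff'.mp hc
  have := W_enc basis (fun _ h => h) m
  rw [show encAux basis m = code m from (code_eq_enc m hm).symm] at this
  exact this.2

end Normal

/-! ### The image in the first Conway group -/

/-- The quotient map. -/
abbrev mk1 : Co0 →* Spor.Co1 := QuotientGroup.mk' (Subgroup.center Co0)

theorem mk1_eq_one {g : Co0} : mk1 g = 1 ↔ g = 1 ∨ g = negG := by
  rw [← Cfsg.Agent.Lib.Leech.Center.mem_center_iff]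
  exact QuotientGroup.eq_one_iff _

theorem mk1_ker : mk1.ker = Subgroup.center Co0 := QuotientGroup.ker_mk' _

theorem mk1_eq_iff {a b : Co0} : mk1 a = mk1 b ↔ b = a ∨ b = a * negG := by
  constructor
  · intro h
    have h1 : mk1 (a⁻¹ * b) = 1 := by rw [map_mul, map_inv, h]; simp
    rcases mk1_eq_one.mp h1 with h2 | h2
    · left
      exact (inv_mul_eq_one.mp h2).symm
    · right
      rw [← h2]
      group
  · rintro (rfl | rfl)
    · rfl
    · rw [map_mul, mk1_eq_one.mpr (Or.inr rfl), mul_one]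

instance : Finite Spor.Co1 := inferInstanceAs (Finite (Co0 ⧸ Subgroup.center Co0))

theorem card_map_mk1 {H : Subgroup Co0} (hH : Subgroup.center Co0 ≤ H) :
    Nat.card (H.map mk1) * 2 = Nat.card H := by
  have h1 : (H.map mk1).comap mk1 = H := by
    rw [Subgroup.comap_map_eq, mk1_ker]
    exact sup_eq_left.mpr hH
  have h2 : H.index = (H.map mk1).index := by
    conv_lhs => rw [← h1]
    exact Subgroup.index_comap_of_surjective _ (QuotientGroup.mk'_surjective _)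
  have h3 := Subgroup.card_mul_index H
  have h4 := Subgroup.card_mul_index (H.map mk1)
  have h5 : Nat.card Spor.Co1 * 2 = Nat.card Co0 := by
    have := Subgroup.card_eq_card_quotient_mul_card_subgroup (Subgroup.center Co0)
    rw [Cfsg.Agent.Lib.Leech.Center.card_center] at this
    exact this.symm
  rw [h2] at h3
  have h6 : (H.map mk1).index ≠ 0 := Subgroup.index_ne_zero_of_finite
  apply Nat.eq_of_mul_eq_mul_right (Nat.pos_of_ne_zero h6)
  rw [h3, ← h5, ← h4]
  ring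

theorem center_le_DD : Subgroup.center Co0 ≤ DD := by
  intro g hg
  rcases Cfsg.Agent.Lib.Leech.Center.mem_center_iff.mp hg with rfl | rfl
  · exact DD.one_mem
  · exact negG_mem_DD

theorem center_le_NN : Subgroup.center Co0 ≤ NN := center_le_DD.trans DD_le_NN

theorem card_DD : Nat.card DD = 4096 := by
  rw [← card_code_supports]
  symm
  refine Nat.card_congr (Equiv.ofBijective (fun c : Sup => (⟨monG 1 M24.one_mem c.1 c.2, mem_DD.mpr ⟨_, _, rfl⟩⟩ : DD))
    ⟨?_, ?_⟩)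
  · rintro ⟨c, hc⟩ ⟨c', hc'⟩ h
    have h0 : monG 1 M24.one_mem c hc = monG 1 M24.one_mem c' hc' := congrArg Subtype.val h
    exact Subtype.ext (monG_inj h0).2
  · rintro ⟨g, hg⟩
    obtain ⟨c, hc, rfl⟩ := mem_DD.mp hg
    exact ⟨⟨c, hc⟩, rfl⟩

/-- The images in the first Conway group. -/
noncomputable def DB : Subgroup Spor.Co1 := DD.map mk1
noncomputable def NB : Subgroup Spor.Co1 := NN.map mk1
noncomputable def KB : Subgroup Spor.Co1 := KK.map mk1

theorem card_DB : Nat.card DB = 2 ^ 11 := by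
  have h := card_map_mk1 center_le_DD
  rw [card_DD] at h
  show Nat.card (DD.map mk1) = 2 ^ 11
  omega

theorem DB_le_NB : DB ≤ NB := Subgroup.map_mono DD_le_NN
theorem KB_le_NB : KB ≤ NB := Subgroup.map_mono KK_le_NN

theorem DD_normal {n d : Co0} (hn : n ∈ NN) (hd : d ∈ DD) : n * d * n⁻¹ ∈ DD := by
  obtain ⟨u, hu, rfl⟩ := hd
  have := (permHom.normal_ker).conj_mem u hu ⟨n, hn⟩
  exact ⟨_, this, rfl⟩

theorem DB_normal {n d : Spor.Co1} (hn : n ∈ NB) (hd : d ∈ DB) : n * d * n⁻¹ ∈ DB := by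
  obtain ⟨n', hn', rfl⟩ := hn
  obtain ⟨d', hd', rfl⟩ := hd
  exact ⟨_, DD_normal hn' hd', by simp⟩

theorem DB_elem : Cfsg.IsElementaryAbelian 2 DB := by
  refine ⟨⟨⟨?_⟩⟩, ?_⟩
  · rintro ⟨_, d, hd, rfl⟩ ⟨_, d', hd', rfl⟩
    obtain ⟨c, hc, rfl⟩ := mem_DD.mp hd
    obtain ⟨c', hc', rfl⟩ := mem_DD.mp hd'
    apply Subtype.ext
    show mk1 _ * mk1 _ = mk1 _ * mk1 _
    rw [← map_mul, ← map_mul, sign_mul, sign_mul]
    congr 1
    apply monG_congr rfl
    exact symmDiff_comm _ _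
  · rintro _ ⟨d, hd, rfl⟩
    obtain ⟨c, hc, rfl⟩ := mem_DD.mp hd
    rw [← map_pow, sq, sign_mul]
    have : monG 1 M24.one_mem (symmDiff c c) (symmDiff_mem_Sup hc hc) = 1 := by
      rw [← monG_one_empty]
      apply monG_congr rfl
      simp
    rw [this, map_one]

theorem liftM_mem_DD {σ : M24} (h : liftM σ ∈ DD) : σ = 1 := by
  obtain ⟨c, hc, h1⟩ := mem_DD.mp h
  exact Subtype.ext (monG_inj (σ := σ.1) (hσ := σ.2) (d := ∅) (hd := empty_mem_Sup) h1).1

theorem DB_inf_KB : DB ⊓ KB = ⊥ := by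
  rw [eq_bot_iff]
  rintro _ ⟨⟨d, hd, rfl⟩, ⟨_, ⟨σ, rfl⟩, h⟩⟩
  rw [Subgroup.mem_bot]
  have h2 : liftM σ ∈ DD := by
    rcases mk1_eq_iff.mp h with h1 | h1
    · rw [← h1]
      exact hd
    · have h3 : liftM σ = d * negG⁻¹ := by
        rw [h1]
        group
      rw [h3]
      exact DD.mul_mem hd (DD.inv_mem negG_mem_DD)
  have h3 := liftM_mem_DD h2
  subst h3
  rw [← h, map_one, map_one]

theorem DB_sup_KB : DB ⊔ KB = NB := by
  apply le_antisymm (sup_le DB_le_NB KB_le_NB)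
  rintro _ ⟨n, hn, rfl⟩
  obtain ⟨σ, hσ, c, hc, rfl⟩ := presCross_eq_monG hn
  rw [monG_decomp, map_mul]
  refine Subgroup.mul_mem_sup ⟨_, mem_DD.mpr ⟨c, hc, rfl⟩, rfl⟩ ⟨_, ⟨⟨σ, hσ⟩, rfl⟩, rfl⟩

theorem KB_iso : Nonempty (KB ≃* M24) := by
  have hinj : Function.Injective (mk1.comp liftM) := by
    rw [injective_iff_map_eq_one]
    intro σ hσ
    apply liftM_mem_DD
    rcases mk1_eq_one.mp hσ with h | h
    · rw [h]
      exact DD.one_mem
    · rw [h]
      exact negG_mem_DD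
  have hr : (mk1.comp liftM).range = KB := by
    show _ = KK.map mk1
    rw [KK, MonoidHom.range_comp]
  exact ⟨(MulEquiv.subgroupCongr hr.symm).trans (MonoidHom.ofInjective hinj).symm⟩

/-! ### Classes of the cross -/

/-- Congruence modulo twice the lattice. -/
def Cong (x y : L) : Prop := ∃ w ∈ leechLattice, (x : GolayPt → ℤ) - y = (2 : ℕ) • w

theorem Cong.refl (x : L) : Cong x x := ⟨0, leechLattice.zero_mem, by simp⟩

theorem Cong.symm {x y : L} (h : Cong x y) : Cong y x := by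
  obtain ⟨w, hw, h1⟩ := h
  refine ⟨-w, leechLattice.neg_mem hw, ?_⟩
  rw [_root_.smul_neg, ← h1]
  abel

theorem Cong.trans {x y t : L} (h : Cong x y) (h' : Cong y t) : Cong x t := by
  obtain ⟨w, hw, h1⟩ := h
  obtain ⟨w', hw', h2⟩ := h'
  refine ⟨w + w', leechLattice.add_mem hw hw', ?_⟩
  rw [_root_.smul_add, ← h1, ← h2]
  abel

theorem Cong.smul {x y : L} (h : Cong x y) (g : Co0) : Cong (g • x) (g • y) := by
  obtain ⟨w, hw, h1⟩ := h
  refine ⟨((g • (⟨w, hw⟩ : L) : L) : GolayPt → ℤ), (g • (⟨w, hw⟩ : L)).2, ?_⟩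
  have h3 : x - y = 2 • (⟨w, hw⟩ : L) := Subtype.ext h1
  have h4 : g • x - g • y = 2 • (g • (⟨w, hw⟩ : L)) := by
    rw [← smul_nsmul, ← h3, smul_sub]
  exact congrArg Subtype.val h4

theorem cong_of_stdCross (i : GolayPt) {v : L} (hv : (v : GolayPt → ℤ) ∈ stdCross) : Cong (e8L i) v := by
  obtain ⟨-, -, hz⟩ := stdCross_sub_cross i hv
  exact hz

/-- An automorphism preserving the class of `8 e_i` preserves the standard cross. -/
theorem pres_of_cong {g : Co0} {i : GolayPt} (h : Cong (g • e8L i) (e8L i)) : PresCross g := by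
  intro v hv
  have h1 := cong_of_stdCross i hv
  have h2 : Cong (e8L i) (g • v) := (h.symm).trans (h1.smul g)
  rw [← cross_e8 i]
  refine ⟨(g • v).2, ?_, ?_⟩
  · rw [sqNorm_smul, sqNorm_stdCross hv, sqNorm_stdCross (e8_mem_stdCross i)]
  · exact h2

theorem cong_of_NN {g : Co0} (hg : g ∈ NN) (i : GolayPt) : Cong (g • e8L i) (e8L i) :=
  (cong_of_stdCross i (hg _ (e8_mem_stdCross i))).symm

end Cfsg.Agent.Lib.Monster.Frame
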