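import Cfsg.Agent.Lib.Monster.Types
import Cfsg.Agent.Lib.Monster.Frame

/-!
# The image of the centralizer of a conjugate of `z` in the first Conway group

Let `s = g z g⁻¹` be a conjugate of `z` in `Q` other than `z`. The image in `C/Q` of `C_C(s)` is the image of
the monomial group (up to conjugacy), and the image of `Q^g ∩ C` is the image of the sign changes.
-/

set_option autoImplicit false
set_option linter.unusedSectionVars false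
set_option linter.unusedVariables false

open Cfsg

namespace Cfsg.Agent.Lib.Monster.Struct

open Subgroup Cfsg.Agent.Lib.Monster.Form Cfsg.Agent.Lib.Monster.Local Cfsg.Agent.Lib.Monster.That
  Cfsg.Agent.Lib.Monster.Types Cfsg.Agent.Lib.Monster.Frame Cfsg.Agent.Lib.Monster.Co2Core
  Cfsg.Agent.Lib.Leech.Lat Cfsg.Agent.Lib.Leech.Mon Cfsg.Agent.Lib.Leech.Reach

variable {G : Type*} [Group G] [Finite G] {z : G} {Q : Subgroup (Cz z)} [Q.Normal]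
  {e : (Cz z) ⧸ Q ≃* Spor.Co1} {ψ : leechLattice → Q ⧸ center Q}

/-- The data of a frame. -/
structure Fr (z : G) (Q : Subgroup (Cz z)) [Q.Normal] (e : (Cz z) ⧸ Q ≃* Spor.Co1)
    (ψ : leechLattice → Q ⧸ center Q) (g : G) (γ₀ : Co0) (a : Q) (u : L) : Prop where
  h : MSet z Q e ψ
  hs : g * z * g⁻¹ ∈ Q0 Q
  hne : g * z * g⁻¹ ≠ z
  ha : ((a : Cz z) : G) = g * z * g⁻¹
  hu : ψ u = QuotientGroup.mk a
  hγ : γ₀ • u = e8L none

theorem exists_Fr (h : MSet z Q e ψ) {g : G} (hs : g * z * g⁻¹ ∈ Q0 Q) (hne : g * z * g⁻¹ ≠ z) :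
    ∃ (γ₀ : Co0) (a : Q) (u : L), Fr z Q e ψ g γ₀ a u := by
  obtain ⟨hs1, hs2⟩ := mem_Q0.mp hs
  obtain ⟨u, hu, hn⟩ := type4_of_conj (a := ⟨⟨_, hs1⟩, hs2⟩) h rfl hne
  obtain ⟨γ, hγ⟩ := Cfsg.Agent.Lib.Leech.Trans.trans64 u (e8L none) hn
    (Cfsg.Agent.Lib.Leech.Order.sqNorm_e8L none)
  exact ⟨γ, _, u, h, hs, hne, rfl, hu, hγ⟩

section

variable {g : G} {γ₀ : Co0} {a : Q} {u : L}

/-- The identification. -/
noncomputable def Phi (e : (Cz z) ⧸ Q ≃* Spor.Co1) (γ₀ : Co0) : Spor.Co1 ≃* (Cz z) ⧸ Q :=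
  (MulAut.conj (mk1 γ₀)⁻¹).trans e.symm

theorem Phi_mk (n : Co0) : Phi e γ₀ (mk1 n) = e.symm (mk1 (γ₀⁻¹ * n * γ₀)) := by
  show e.symm ((mk1 γ₀)⁻¹ * mk1 n * ((mk1 γ₀)⁻¹)⁻¹) = _
  simp [map_mul, map_inv]

theorem Phi_conj (γ : Co0) : Phi e γ₀ (mk1 (γ₀ * γ * γ₀⁻¹)) = e.symm (mk1 γ) := by
  rw [Phi_mk]
  congr 2
  group

variable (F : Fr z Q e ψ g γ₀ a u)
include F

theorem Fr.hnc : a ∉ center Q := not_center_of_conj F.h F.ha (by rw [F.ha]; exact F.hne)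

theorem Fr.cong_iff (γ : Co0) : ψ (γ • u) = ψ u ↔ γ₀ * γ * γ₀⁻¹ ∈ NN := by
  have hu0 : γ₀⁻¹ • e8L none = u := by rw [← F.hγ, inv_smul_smul]
  constructor
  · intro h1
    have h2 : Cong (γ • u) u := (psi_eq_iff F.h).mp h1
    have h3 := h2.smul γ₀
    have h4 : γ₀ • γ • u = (γ₀ * γ * γ₀⁻¹) • e8L none := by
      rw [mul_smul, mul_smul, hu0]
    rw [h4, F.hγ] at h3
    exact pres_of_cong h3
  · intro h1
    have h2 := cong_of_NN h1 none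
    have h3 := h2.smul γ₀⁻¹
    have h4 : γ₀⁻¹ • (γ₀ * γ * γ₀⁻¹) • e8L none = γ • u := by
      rw [mul_smul, mul_smul, hu0, inv_smul_smul]
    rw [h4, hu0] at h3
    exact (psi_eq_iff F.h).mpr h3

/-- **The image of the centralizer of `s`.** -/
theorem Fr.X_eq : ((Cz z ⊓ centralizer ({g * z * g⁻¹} : Set G)).subgroupOf (Cz z)).map (QuotientGroup.mk' Q) =
    NB.map (Phi e γ₀).toMonoidHom := by
  apply le_antisymm
  · rintro _ ⟨c, hc, rfl⟩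
    obtain ⟨γ, hγ⟩ := F.h.exists_lift_mk c
    have hcs : (c : G) * (g * z * g⁻¹) = (g * z * g⁻¹) * (c : G) := by
      have h1 := (mem_centralizer_iff.mp hc.2) _ rfl
      exact h1.symm
    have h1 : ψ (γ • u) = ψ u := by
      have h2 := F.h.hψ.2.2.2 c γ hγ u a F.hu
      rw [h2, F.hu]
      congr 1
      apply Subtype.ext
      apply Subtype.ext
      show (c : G) * ((a : Cz z) : G) * (c : G)⁻¹ = _
      rw [F.ha, hcs]
      simp
    refine ⟨mk1 (γ₀ * γ * γ₀⁻¹), ⟨_, (F.cong_iff γ).mp h1, rfl⟩, ?_⟩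
    show Phi e γ₀ _ = _
    rw [Phi_conj]
    show e.symm (QuotientGroup.mk γ) = _
    rw [hγ]
    simp
  · rintro _ ⟨_, ⟨n, hn, rfl⟩, rfl⟩
    have hl : ψ ((γ₀⁻¹ * n * γ₀) • u) = ψ u := by
      rw [F.cong_iff]
      have : γ₀ * (γ₀⁻¹ * n * γ₀) * γ₀⁻¹ = n := by group
      rw [this]
      exact hn
    obtain ⟨c, hc, hca⟩ := F.h.exists_conj_of_smul (γ₀⁻¹ * n * γ₀) F.hu (hl.trans F.hu) F.hnc
    refine ⟨c, ⟨c.2, ?_⟩, ?_⟩
    · show (c : G) ∈ centralizer _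
      rw [mem_centralizer_iff]
      rintro _ rfl
      have h1 := congrArg Subtype.val hca
      have h2 : (c : G) * (g * z * g⁻¹) * (c : G)⁻¹ = g * z * g⁻¹ := by
        rw [← F.ha]
        exact h1
      calc (g * z * g⁻¹) * (c : G) = (c : G) * (g * z * g⁻¹) * (c : G)⁻¹ * (c : G) := by rw [h2]
        _ = (c : G) * (g * z * g⁻¹) := by group
    · show QuotientGroup.mk c = Phi e γ₀ (mk1 n)
      rw [Phi_mk]
      show _ = e.symm (QuotientGroup.mk (γ₀⁻¹ * n * γ₀))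
      rw [hc]
      simp

/-- The conjugate of `ThatG`. -/
theorem Fr.H_eq : (ThatG Q e g).map (MulAut.conj γ₀).toMonoidHom = DD := by
  have hconj : ∀ x, x ∈ (ThatG Q e g).map (MulAut.conj γ₀).toMonoidHom ↔ γ₀⁻¹ * x * γ₀ ∈ ThatG Q e g := by
    intro x
    rw [Subgroup.mem_map]
    constructor
    · rintro ⟨y, hy, rfl⟩
      simpa [mul_assoc] using hy
    · intro h
      exact ⟨_, h, by simp [mul_assoc]⟩
  apply eq_DD
  · -- inside the monomial group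
    intro x hx
    have h1 := That_psi F.h ((hconj x).mp hx) F.ha F.hu
    have h2 := (F.cong_iff _).mp h1
    have e1 : γ₀ * (γ₀⁻¹ * x * γ₀) * γ₀⁻¹ = x := by group
    rwa [e1] at h2
  · exact (That_isPGroup F.h F.hs).map _
  · intro n hn t ht
    rw [hconj] at ht ⊢
    have hl : ψ ((γ₀⁻¹ * n * γ₀) • u) = ψ u := by
      rw [F.cong_iff]
      have : γ₀ * (γ₀⁻¹ * n * γ₀) * γ₀⁻¹ = n := by group
      rw [this]
      exact hn
    have h1 := That_conj F.h ht F.ha F.hnc F.hu hl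
    have e1 : γ₀⁻¹ * (n * t * n⁻¹) * γ₀ = (γ₀⁻¹ * n * γ₀) * (γ₀⁻¹ * t * γ₀) * (γ₀⁻¹ * n * γ₀)⁻¹ := by group
    rwa [e1]
  · rw [hconj]
    have e1 : γ₀⁻¹ * negG * γ₀ = negG := by
      rw [mul_assoc, negG_central γ₀]
      group
    rw [e1]
    exact negG_mem_That
  · obtain ⟨γ, hγ, hγc⟩ := exists_not_center F.h F.hs F.hne
    refine ⟨γ₀ * γ * γ₀⁻¹, (hconj _).mpr ?_, ?_⟩
    · have e1 : γ₀⁻¹ * (γ₀ * γ * γ₀⁻¹) * γ₀ = γ := by group
      rwa [e1]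
    · intro hc
      apply hγc
      have h1 := (Subgroup.mem_center_iff.mp hc)
      rw [Subgroup.mem_center_iff]
      intro y
      have h2 := h1 (γ₀ * y * γ₀⁻¹)
      have e1 : γ₀ * y * γ₀⁻¹ * (γ₀ * γ * γ₀⁻¹) = γ₀ * (y * γ) * γ₀⁻¹ := by group
      have e2 : γ₀ * γ * γ₀⁻¹ * (γ₀ * y * γ₀⁻¹) = γ₀ * (γ * y) * γ₀⁻¹ := by group
      rw [e1, e2] at h2
      exact mul_left_cancel (mul_right_cancel h2)

/-- **The image of `Q^g ∩ C`.** -/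
theorem Fr.E_eq : ((Q1 Q g ⊓ Cz z).subgroupOf (Cz z)).map (QuotientGroup.mk' Q) =
    DB.map (Phi e γ₀).toMonoidHom := by
  have hH := F.H_eq
  apply le_antisymm
  · rintro _ ⟨r, hr, rfl⟩
    obtain ⟨γ, hγ⟩ := F.h.exists_lift_mk r
    have h1 : γ ∈ ThatG Q e g := mem_ThatG.mpr ⟨r, hr.1, hγ⟩
    have h2 : γ₀ * γ * γ₀⁻¹ ∈ DD := by
      rw [← hH]
      exact ⟨γ, h1, rfl⟩
    refine ⟨mk1 (γ₀ * γ * γ₀⁻¹), ⟨_, h2, rfl⟩, ?_⟩
    show Phi e γ₀ _ = _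
    rw [Phi_conj]
    show e.symm (QuotientGroup.mk γ) = _
    rw [hγ]
    simp
  · rintro _ ⟨_, ⟨d, hd, rfl⟩, rfl⟩
    rw [← hH] at hd
    obtain ⟨γ, hγ, rfl⟩ := hd
    obtain ⟨r, hr, h1⟩ := mem_ThatG.mp hγ
    refine ⟨r, ⟨hr, r.2⟩, ?_⟩
    show QuotientGroup.mk r = Phi e γ₀ (mk1 (γ₀ * γ * γ₀⁻¹))
    rw [Phi_conj]
    show _ = e.symm (QuotientGroup.mk γ)
    rw [h1]
    simp

end

end Cfsg.Agent.Lib.Monster.Struct
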