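import Cfsg.Agent.Lib.Monster.That
import Cfsg.Agent.Lib.Leech.Classes

/-!
# Conjugates of the central involution in `Q`: exactly the vectors of norm 64
-/

set_option autoImplicit false
set_option linter.unusedSectionVars false
set_option linter.unusedVariables false

open Cfsg

namespace Cfsg.Agent.Lib.Monster.Types

open Subgroup Cfsg.Agent.Lib.Monster.Form Cfsg.Agent.Lib.Monster.Local Cfsg.Agent.Lib.Monster.That
  Cfsg.Agent.Lib.Leech.Lat

variable {G : Type*} [Group G] [Finite G] {z : G} {Q : Subgroup (Cz z)} [Q.Normal]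
  {e : (Cz z) ⧸ Q ≃* Spor.Co1} {ψ : leechLattice → Q ⧸ center Q}

theorem exists_psi (h : MSet z Q e ψ) (a : Q) : ∃ v, ψ v = QuotientGroup.mk a := h.hψ.2.1 _

/-- Short representatives of involutions. -/
theorem exists_short_class (h : MSet z Q e ψ) {a : Q} (ha2 : a ^ 2 = 1) (hnc : a ∉ center Q) :
    ∃ u : leechLattice, ψ u = QuotientGroup.mk a ∧
      (Cfsg.sqNorm (u : Cfsg.GolayPt → ℤ) = 32 ∨ Cfsg.sqNorm (u : Cfsg.GolayPt → ℤ) = 64) := by
  obtain ⟨v, hv⟩ := exists_psi h a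
  obtain ⟨y, hy, hy2, w, hw, hw2⟩ := Cfsg.Agent.Lib.Leech.Classes.short_rep v.2
  have h1 : ψ v = ψ ⟨y, hy⟩ := (psi_eq_iff h).mpr ⟨w, hw, hw2⟩
  have h2 : ψ ⟨y, hy⟩ = QuotientGroup.mk a := h1.symm.trans hv
  refine ⟨⟨y, hy⟩, h2, ?_⟩
  have h3 := (sq_eq_one_iff h.hE h.hψ h2).mp ha2
  rcases Cfsg.Agent.Lib.Leech.Classes.norm_cases ⟨y, hy⟩ hy2 with h4 | h4 | h4 | h4
  · exfalso
    apply hnc
    have h5 : (⟨y, hy⟩ : leechLattice) = 0 := by
      apply Subtype.ext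
      exact sqNorm_eq_zero h4
    have h6 : ψ (⟨y, hy⟩ : leechLattice) = 1 := (h.hψ.2.2.1 _).mpr ⟨0, by rw [h5]; simp⟩
    rw [h6] at h2
    exact (QuotientGroup.eq_one_iff _).mp h2.symm
  · exact Or.inl h4
  · exfalso
    rw [h4] at h3
    norm_num at h3
  · exact Or.inr h4

theorem not_center_of_conj (h : MSet z Q e ψ) {g : G} {a : Q} (ha : ((a : Cz z) : G) = g * z * g⁻¹)
    (hne : ((a : Cz z) : G) ≠ z) : a ∉ center Q := by
  intro hc
  rcases (h.mem_center_iff a).mp hc with h1 | h1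
  · apply h.z_ne_one
    have h2 : g * z * g⁻¹ = 1 := by rw [← ha, h1]; rfl
    have h4 : g⁻¹ * (g * z * g⁻¹) * g = g⁻¹ * 1 * g := by rw [h2]
    simpa [mul_assoc] using h4
  · apply hne
    rw [h1]
    rfl

theorem sq_of_conj (h : MSet z Q e ψ) {g : G} {a : Q} (ha : ((a : Cz z) : G) = g * z * g⁻¹) : a ^ 2 = 1 := by
  apply Subtype.ext
  apply Subtype.ext
  show ((a : Cz z) : G) ^ 2 = 1
  rw [ha, conj_pow]
  have h1 : z ^ 2 = 1 := by
    rw [← h.hz]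
    exact pow_orderOf_eq_one z
  rw [h1]
  simp

/-- Conjugates of `z` in `Q` have type 4. -/
theorem type4_of_conj (h : MSet z Q e ψ) {g : G} {a : Q} (ha : ((a : Cz z) : G) = g * z * g⁻¹)
    (hne : ((a : Cz z) : G) ≠ z) :
    ∃ u : leechLattice, ψ u = QuotientGroup.mk a ∧ Cfsg.sqNorm (u : Cfsg.GolayPt → ℤ) = 64 := by
  obtain ⟨u, hu, h1⟩ := exists_short_class h (sq_of_conj h ha) (not_center_of_conj h ha hne)
  refine ⟨u, hu, ?_⟩
  rcases h1 with h1 | h1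
  · exfalso
    refine not_norm32 h ?_ ?_ ha hu h1
    · rw [← ha]
      exact coe_mem_Q0 a.2
    · rw [← ha]
      exact hne
  · exact h1

/-- The existence of a conjugate in `Q`. -/
def NWC (z : G) (Q : Subgroup (Cz z)) : Prop :=
  ∃ g : G, (∃ hq : g * z * g⁻¹ ∈ Cz z, (⟨g * z * g⁻¹, hq⟩ : Cz z) ∈ Q) ∧ g * z * g⁻¹ ≠ z

/-- Vectors of norm 64 give conjugates of `z`. -/
theorem conj_of_type4 (h : MSet z Q e ψ) (hnwc : NWC z Q) {x : Q} {v : leechLattice}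
    (hn : Cfsg.sqNorm (v : Cfsg.GolayPt → ℤ) = 64) (hv : ψ v = QuotientGroup.mk x) :
    IsConj z ((x : Cz z) : G) ∧ ((x : Cz z) : G) ≠ z := by
  obtain ⟨g, ⟨hq, hq2⟩, hne⟩ := hnwc
  set a : Q := ⟨⟨g * z * g⁻¹, hq⟩, hq2⟩ with ha
  have ha' : ((a : Cz z) : G) = g * z * g⁻¹ := rfl
  obtain ⟨u, hu, hun⟩ := type4_of_conj h ha' hne
  obtain ⟨γ, hγ⟩ := Cfsg.Agent.Lib.Leech.Trans.trans64 u v hun hn
  have hnc := not_center_of_conj h ha' hne
  obtain ⟨c, -, hc⟩ := h.exists_conj_of_smul γ hu (by rw [hγ]; exact hv) hnc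
  constructor
  · rw [isConj_iff]
    refine ⟨(c : G) * g, ?_⟩
    have h1 := congrArg Subtype.val hc
    have h2 : (c : G) * (g * z * g⁻¹) * (c : G)⁻¹ = ((x : Cz z) : G) := h1
    rw [← h2]
    group
  · intro hxz
    have hxc : x ∈ center Q := (h.mem_center_iff x).mpr (Or.inr (Subtype.ext hxz))
    have h1 : (QuotientGroup.mk x : Q ⧸ center Q) = 1 := (QuotientGroup.eq_one_iff _).mpr hxc
    rw [h1] at hv
    obtain ⟨w, hw⟩ := (h.hψ.2.2.1 _).mp hv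
    have h3 : (v : Cfsg.GolayPt → ℤ) = (2 : ℕ) • (w : Cfsg.GolayPt → ℤ) := by
      rw [hw, two_nsmul]
      rfl
    rw [h3, sqNorm_two_nsmul] at hn
    have h4 : Cfsg.sqNorm (w : Cfsg.GolayPt → ℤ) = 16 := by omega
    have hw0 : (w : Cfsg.GolayPt → ℤ) ≠ 0 := by
      intro h5
      rw [h5] at h4
      simp [Cfsg.sqNorm] at h4
    have := min_norm' w.2 hw0
    omega

end Cfsg.Agent.Lib.Monster.Types
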