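import Cfsg.Agent.Lib.Monster.Baby2
import Cfsg.Agent.Lib.Monster.Struct
import Cfsg.Agent.S5411

/-!
# A type-2 involution in `Q ∩ Q^g`

So `z` is not weakly closed in the new extraspecial group.
-/

set_option autoImplicit false
set_option linter.unusedSectionVars false
set_option linter.unusedVariables false

open Cfsg

namespace Cfsg.Agent.Lib.Monster.Baby3

open Subgroup Cfsg.Agent.Lib.PGroups.Special Cfsg.Agent.Lib.PGroups.ClassTwo
  Cfsg.Agent.Lib.Monster.Form Cfsg.Agent.Lib.Monster.Local Cfsg.Agent.Lib.Monster.That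
  Cfsg.Agent.Lib.Monster.Types Cfsg.Agent.Lib.Monster.Frame Cfsg.Agent.Lib.Monster.BabyLat
  Cfsg.Agent.Lib.Monster.Baby Cfsg.Agent.Lib.Monster.Baby2 Cfsg.Agent.Lib.Monster.Struct
  Cfsg.Agent.Lib.Leech.Lat Cfsg.Agent.Lib.Golay.Core Cfsg.Agent.Lib.Leech.Even
  Cfsg.Agent.Lib.Leech.Mon Cfsg.Agent.Lib.Leech.Order
open scoped commutatorElement

/-- An octad. -/
def nO : ℕ := 4845570
/-- An octad meeting the first one in two points. -/
def nC : ℕ := 12222476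

theorem nO_mem : setOf nO ∈ octads := (setOf_mem_octads_iff (by unfold nO; norm_num)).mpr (by decide +kernel)
theorem nC_mem : setOf nC ∈ octads := (setOf_mem_octads_iff (by unfold nC; norm_num)).mpr (by decide +kernel)

theorem nO_sup : setOf nO ∈ Sup := nO_mem.1
theorem nC_sup : setOf nC ∈ Sup := nC_mem.1

/-- The vector `(2^8, 0^16)`. -/
def wO : L := ⟨twice (setOf nO), twice_mem nO_sup⟩

theorem norm_diff : sqNorm (fun i => (if i ∈ setOf nC then -twice (setOf nO) i else twice (setOf nO) i) -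
    twice (setOf nO) i) = 32 := by
  decide +kernel

theorem dot_w : dotInt (twice (setOf nO)) (e8 none) = 0 := by
  decide +kernel

/-- The sign change. -/
noncomputable def dC : Co0 := monG 1 M24.one_mem (setOf nC) nC_sup

theorem dC_mem : dC ∈ DD := mem_DD.mpr ⟨_, _, rfl⟩

theorem norm_dC : sqNorm ((dC • wO - wO : L) : GolayPt → ℤ) = 32 := by
  have h : ((dC • wO - wO : L) : GolayPt → ℤ) = fun i => (if i ∈ setOf nC then -twice (setOf nO) i else twice (setOf nO) i) -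
      twice (setOf nO) i := by
    funext i
    show signedPerm 1 (setOf nC) (twice (setOf nO)) i - twice (setOf nO) i = _
    rw [signedPerm_apply]
    rfl
  rw [h]
  exact norm_diff

variable {G : Type*} [Group G] [Finite G] {z : G} {Q : Subgroup (Cz z)} [Q.Normal]
  {e : (Cz z) ⧸ Q ≃* Spor.Co1} {ψ : leechLattice → Q ⧸ center Q}

theorem psi_ne_one (h : MSet z Q e ψ) {v : L} (hn : sqNorm (v : GolayPt → ℤ) = 32) : ψ v ≠ 1 := by
  intro h1
  obtain ⟨w, hw⟩ := (h.hψ.2.2.1 _).mp h1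
  have h3 : (v : GolayPt → ℤ) = (2 : ℕ) • (w : GolayPt → ℤ) := by
    rw [hw, two_nsmul]
    rfl
  rw [h3, sqNorm_two_nsmul] at hn
  have h4 : sqNorm (w : GolayPt → ℤ) = 8 := by omega
  have hw0 : (w : GolayPt → ℤ) ≠ 0 := by
    intro h5
    rw [h5] at h4
    simp [Cfsg.sqNorm] at h4
  have := min_norm' w.2 hw0
  omega

/-- **A type-2 involution in `Q ∩ Q^g`.** -/
theorem exists_meet (h : MSet z Q e ψ) (hnwc : NWC z Q) :
    ∃ g t' : G, g * z * g⁻¹ ∈ Q0 Q ∧ g * z * g⁻¹ ≠ z ∧ t' ∈ Q0 Q ∧ t' ∈ Q1 Q g ∧ orderOf t' = 2 ∧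
      ¬ IsConj z t' := by
  obtain ⟨g, ⟨hq, hq2⟩, hne⟩ := hnwc
  have hs0 : g * z * g⁻¹ ∈ Q0 Q := mem_Q0.mpr ⟨hq, hq2⟩
  obtain ⟨γ₀, a₀, u₀, F⟩ := exists_Fr h hs0 hne
  have hH := F.H_eq
  have hd : dC ∈ (ThatG Q e g).map (MulAut.conj γ₀).toMonoidHom := by
    rw [hH]
    exact dC_mem
  obtain ⟨γ, hγ, hγd⟩ := hd
  have hγd' : γ₀ * γ * γ₀⁻¹ = dC := hγd
  obtain ⟨r, hr, hrγ⟩ := mem_ThatG.mp hγ
  set v : L := γ₀⁻¹ • wO with hv
  obtain ⟨q, hvq⟩ := exists_lift v ψ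
  -- `q` commutes with `s`
  have hcomm : ⁅a₀, q⁆ = 1 := by
    apply (comm_eq_one_iff h.hE h.hψ hvq F.hu).mpr
    have h1 := smul_dot γ₀ v u₀
    rw [F.hγ, hv, smul_inv_smul] at h1
    rw [← h1]
    show (16 : ℤ) ∣ dotInt (twice (setOf nO)) (e8 none)
    rw [dot_w]
    exact dvd_zero _
  have hcommG : ((q : Cz z) : G) * (g * z * g⁻¹) * ((q : Cz z) : G)⁻¹ = g * z * g⁻¹ := by
    rw [← F.ha]
    have h1 : a₀ * q = q * a₀ := commutatorElement_eq_one_iff_mul_comm.mp hcomm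
    have h2 : ((a₀ : Cz z) : G) * ((q : Cz z) : G) = ((q : Cz z) : G) * ((a₀ : Cz z) : G) :=
      congrArg (fun w : Q => ((w : Cz z) : G)) h1
    rw [← h2]
    group
  -- the commutator
  set r1 : Q := ⟨r * (q : Cz z) * r⁻¹, (inferInstance : Q.Normal).conj_mem _ q.2 _⟩ with hr1
  have hψ1 : ψ (γ • v) = QuotientGroup.mk r1 := h.hψ.2.2.2 r γ hrγ v q hvq
  set t'' : Q := r1 * q⁻¹ with ht''
  set v' : L := γ • v - v with hv'
  have hψ2 : ψ v' = QuotientGroup.mk t'' := by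
    have h1 : ψ v' * ψ v = ψ (γ • v) := by
      rw [← h.hψ.1, hv', sub_add_cancel]
    rw [hψ1, hvq] at h1
    have h2 : (QuotientGroup.mk t'' : Q ⧸ center Q) * QuotientGroup.mk q = QuotientGroup.mk r1 := by
      rw [← QuotientGroup.mk_mul, ht'']
      simp
    exact mul_right_cancel (h1.trans h2.symm)
  have hnorm : sqNorm (v' : GolayPt → ℤ) = 32 := by
    have h1 : v' = γ₀⁻¹ • (dC • wO - wO) := by
      rw [Leech.Lat.smul_sub, hv', hv, ← hγd', smul_smul γ₀⁻¹]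
      congr 1
      rw [smul_smul]
      congr 1
      group
    rw [h1, smul_sqNorm]
    exact norm_dC
  have hne1 : ψ v' ≠ 1 := psi_ne_one h hnorm
  have ht''c : t'' ∉ center Q := by
    intro hc
    apply hne1
    rw [hψ2]
    exact (QuotientGroup.eq_one_iff _).mpr hc
  refine ⟨g, ((t'' : Cz z) : G), hs0, hne, coe_mem_Q0 t''.2, ?_, ?_, ?_⟩
  · -- in the conjugate
    have h1 : (((q : Cz z) : G)) * ((r : G))⁻¹ * ((q : Cz z) : G)⁻¹ ∈ Q1 Q g :=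
      conj_mem_Q1 hcommG ((Q1 Q g).inv_mem hr)
    have h2 : ((t'' : Cz z) : G) = (r : G) * (((q : Cz z) : G) * (r : G)⁻¹ * ((q : Cz z) : G)⁻¹) := by
      show (r : G) * ((q : Cz z) : G) * (r : G)⁻¹ * ((q : Cz z) : G)⁻¹ = _
      group
    rw [h2]
    exact (Q1 Q g).mul_mem hr h1
  · apply orderOf_eq_prime
    · have h1 : t'' ^ 2 = 1 := (sq_eq_one_iff h.hE h.hψ hψ2).mpr (by rw [hnorm])
      exact congrArg (fun w : Q => ((w : Cz z) : G)) h1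
    · intro h1
      apply ht''c
      have : t'' = 1 := Subtype.ext (Subtype.ext h1)
      rw [this]
      exact Subgroup.one_mem _
  · intro hc
    obtain ⟨g', hg'⟩ := isConj_iff.mp hc
    have h3 : g' * z * g'⁻¹ ≠ z := by
      rw [hg']
      intro h4
      apply ht''c
      exact (h.mem_center_iff _).mpr (Or.inr (Subtype.ext h4))
    have h4 : g' * z * g'⁻¹ ∈ Q0 Q := by
      rw [hg']
      exact coe_mem_Q0 t''.2
    exact not_norm32 h h4 h3 hg'.symm hψ2 hnorm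

/-- **An element centralizing `t` moving `z` inside `Q`.** -/
theorem exists_k (hM : IsOfMonsterType z Q) (h : MSet z Q e ψ) (hnwc : NWC z Q) {t : G} (htQ : t ∈ Q0 Q)
    (ht2 : orderOf t = 2) (ht : ¬ IsConj z t) :
    ∃ k : G, k * t * k⁻¹ = t ∧ k * z * k⁻¹ ∈ Q0 Q ∧ k * z * k⁻¹ ≠ z := by
  obtain ⟨g, t', hs, hne, ht'Q, ht'1, ht'2, ht'3⟩ := exists_meet h hnwc
  -- move `t'` to `t`
  obtain ⟨c1, hc1, hc1t⟩ := Cfsg.Agent.S5411.result z Q hM t' t (mem_Q0.mp ht'Q) (mem_Q0.mp htQ) ht'2 ht2 ht'3 ht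
  set g1 := c1 * g with hg1
  have hc1z : c1 * z = z * c1 := mem_Cz.mp hc1
  have hs1 : g1 * z * g1⁻¹ = c1 * (g * z * g⁻¹) * c1⁻¹ := by
    rw [hg1]
    group
  have hs1Q : g1 * z * g1⁻¹ ∈ Q0 Q := by
    rw [hs1]
    obtain ⟨hs2, hs3⟩ := mem_Q0.mp hs
    exact coe_mem_Q0 ((inferInstance : Q.Normal).conj_mem ⟨_, hs2⟩ hs3 ⟨c1, hc1⟩)
  have hs1ne : g1 * z * g1⁻¹ ≠ z := by
    rw [hs1]
    intro h1
    apply hne
    have h2 : c1⁻¹ * (c1 * (g * z * g⁻¹) * c1⁻¹) * c1 = c1⁻¹ * z * c1 := by rw [h1]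
    have h3 : c1⁻¹ * z * c1 = z := by
      calc c1⁻¹ * z * c1 = c1⁻¹ * (z * c1) := by group
        _ = c1⁻¹ * (c1 * z) := by rw [hc1z]
        _ = z := by group
    rw [h3] at h2
    calc g * z * g⁻¹ = c1⁻¹ * (c1 * (g * z * g⁻¹) * c1⁻¹) * c1 := by group
      _ = z := h2
  -- the conjugate of `t`
  set t1 := g⁻¹ * t' * g with ht1
  have ht1Q : t1 ∈ Q0 Q := mem_Q1.mp ht'1
  have ht1e : g1 * t1 * g1⁻¹ = t := by
    rw [← hc1t, hg1, ht1]
    group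
  have ht1o : orderOf t1 = 2 := by
    rw [ht1]
    have : g⁻¹ * t' * g = g⁻¹ * t' * g⁻¹⁻¹ := by group
    rw [this, ← MulAut.conj_apply, MulEquiv.orderOf_eq]
    exact ht'2
  have ht1c : ¬ IsConj z t1 := by
    intro hc
    apply ht'3
    refine hc.trans ?_
    rw [isConj_iff]
    exact ⟨g, by rw [ht1]; group⟩
  obtain ⟨c2, hc2, hc2t⟩ := Cfsg.Agent.S5411.result z Q hM t t1 (mem_Q0.mp htQ) (mem_Q0.mp ht1Q) ht2 ht1o ht ht1c
  have hc2z : c2 * z = z * c2 := mem_Cz.mp hc2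
  refine ⟨g1 * c2, ?_, ?_, ?_⟩
  · calc g1 * c2 * t * (g1 * c2)⁻¹ = g1 * (c2 * t * c2⁻¹) * g1⁻¹ := by group
      _ = t := by rw [hc2t, ht1e]
  · have e1 : g1 * c2 * z * (g1 * c2)⁻¹ = g1 * z * g1⁻¹ := by
      calc g1 * c2 * z * (g1 * c2)⁻¹ = g1 * (c2 * z) * c2⁻¹ * g1⁻¹ := by group
        _ = g1 * z * g1⁻¹ := by rw [hc2z]; group
    rw [e1]
    exact hs1Q
  · have e1 : g1 * c2 * z * (g1 * c2)⁻¹ = g1 * z * g1⁻¹ := by
      calc g1 * c2 * z * (g1 * c2)⁻¹ = g1 * (c2 * z) * c2⁻¹ * g1⁻¹ := by group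
        _ = g1 * z * g1⁻¹ := by rw [hc2z]; group
    rw [e1]
    exact hs1ne

variable {t : G} {a : Q} {D : Type*} [Group D] {π : Cz t →* D}

/-- **`z` is not weakly closed in the new `Q`.** -/
theorem Qb_nwc (S : BS z t Q e ψ a π) {k : G} (hk1 : k * t * k⁻¹ = t) (hk2 : k * z * k⁻¹ ∈ Q0 Q)
    (hk3 : k * z * k⁻¹ ≠ z) :
    ∃ g : D, (∃ hq : g * zbar S * g⁻¹ ∈ Cz (zbar S), (⟨g * zbar S * g⁻¹, hq⟩ : Cz (zbar S)) ∈ Qb S) ∧
      g * zbar S * g⁻¹ ≠ zbar S := by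
  have hkt : k ∈ Cz t := by
    rw [Cfsg.Agent.Lib.Monster.Local.mem_Cz]
    calc k * t = k * t * k⁻¹ * k := by group
      _ = t * k := by rw [hk1]
  set kT : Cz t := ⟨k, hkt⟩ with hkT
  obtain ⟨hs1, hs2⟩ := mem_Q0.mp hk2
  have hb : (⟨k * z * k⁻¹, hs1⟩ : Cz z) ∈ Bz z t := by
    rw [mem_Bz]
    have h1 : ((kT * ⟨z, S.z_mem⟩ * kT⁻¹ : Cz t) : G) * t = t * ((kT * ⟨z, S.z_mem⟩ * kT⁻¹ : Cz t) : G) :=
      Cfsg.Agent.Lib.Monster.Local.mem_Cz.mp (kT * ⟨z, S.z_mem⟩ * kT⁻¹ : Cz t).2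
    exact h1
  set b : Bz z t := ⟨⟨k * z * k⁻¹, hs1⟩, hb⟩ with hbd
  have hphi : ((phi S b : Cz (zbar S)) : D) = π kT * zbar S * (π kT)⁻¹ := by
    rw [phi_coe]
    have : inT b = kT * ⟨z, S.z_mem⟩ * kT⁻¹ := rfl
    rw [this, map_mul, map_mul, map_inv]
    rfl
  refine ⟨π kT, ⟨?_, ?_⟩, ?_⟩
  · rw [← hphi]
    exact (phi S b).2
  · have h1 : phi S b ∈ Qb S := (phi_mem_Qb S).mpr hs2
    convert h1 using 1
    exact Subtype.ext hphi.symm
  · rw [← hphi]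
    intro h1
    have h2 : π ((inT b) * (⟨z, S.z_mem⟩ : Cz t)⁻¹) = 1 := by
      rw [map_mul, map_inv]
      have h3 : π (inT b) = zbar S := h1
      rw [h3]
      exact mul_inv_cancel _
    rcases (S.hk _).mp h2 with h3 | h3
    · apply hk3
      exact mul_inv_eq_one.mp h3
    · apply S.not_conj_tz
      rw [isConj_iff]
      refine ⟨k, ?_⟩
      exact mul_inv_eq_iff_eq_mul.mp h3

end Cfsg.Agent.Lib.Monster.Baby3
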