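import Cfsg.Agent.Lib.Monster.Types
import Cfsg.Agent.Lib.Monster.Frame
import Cfsg.Agent.Lib.Leech.Module
import Cfsg.Agent.Lib.Leech.Quad

/-!
# The module attached to a short vector

`Co₂` acts faithfully on `u^⊥ / (⟨u⟩ + 2Λ)`.  The commutator form on `Q/Z(Q)` in a group of Monster type.
-/

set_option autoImplicit false
set_option linter.unusedSectionVars false

open Cfsg

namespace Cfsg.Agent.Lib.Monster.BabyLat

open Subgroup Cfsg.Agent.Lib.Leech.Lat Cfsg.Agent.Lib.Monster.Frame Cfsg.Agent.Lib.Monster.Co2Core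
  Cfsg.Agent.Lib.Monster.Form Cfsg.Agent.Lib.Monster.Local
open scoped commutatorElement

/-- The vector `u`. -/
abbrev uL : L := Spor.leechU

theorem sqNorm_uL : sqNorm (uL : GolayPt → ℤ) = 32 := by
  show sqNorm Spor.vecU = 32
  decide +kernel

/-- Zero modulo `⟨u⟩ + 2Λ`. -/
def InM (y : L) : Prop := (∃ w : L, y = w + w) ∨ ∃ w : L, y = uL + (w + w)

theorem InM.zero : InM 0 := Or.inl ⟨0, by simp⟩

theorem InM.add {x y : L} (hx : InM x) (hy : InM y) : InM (x + y) := by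
  rcases hx with ⟨a, rfl⟩ | ⟨a, rfl⟩ <;> rcases hy with ⟨b, rfl⟩ | ⟨b, rfl⟩
  · exact Or.inl ⟨a + b, by abel⟩
  · exact Or.inr ⟨a + b, by abel⟩
  · exact Or.inr ⟨a + b, by abel⟩
  · exact Or.inl ⟨uL + a + b, by abel⟩

theorem InM.neg {x : L} (hx : InM x) : InM (-x) := by
  rcases hx with ⟨a, rfl⟩ | ⟨a, rfl⟩
  · exact Or.inl ⟨-a, by abel⟩
  · exact Or.inr ⟨-uL - a, by abel⟩

theorem InM.smul {x : L} (hx : InM x) {g : Co0} (hg : g • uL = uL) : InM (g • x) := by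
  rcases hx with ⟨a, rfl⟩ | ⟨a, rfl⟩
  · exact Or.inl ⟨g • a, Leech.Lat.smul_add g a a⟩
  · refine Or.inr ⟨g • a, ?_⟩
    rw [Leech.Lat.smul_add, Leech.Lat.smul_add, hg]

/-- Orthogonal to `u` modulo two. -/
def Perp (x : L) : Prop := (16 : ℤ) ∣ dotInt (x : GolayPt → ℤ) (uL : GolayPt → ℤ)

theorem Perp.smul {x : L} (hx : Perp x) {g : Co0} (hg : g • uL = uL) : Perp (g • x) := by
  unfold Perp
  have h1 := smul_dot g x uL
  rw [hg] at h1
  rw [h1]
  exact hx

theorem perp_sub (g : Co0) (hg : g • uL = uL) (y : L) : Perp (g • y - y) := by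
  unfold Perp
  have h1 := smul_dot g y uL
  rw [hg] at h1
  have h2 : dotInt (((g • y - y : L)) : GolayPt → ℤ) (uL : GolayPt → ℤ) =
      dotInt ((g • y : L) : GolayPt → ℤ) (uL : GolayPt → ℤ) - dotInt (y : GolayPt → ℤ) (uL : GolayPt → ℤ) := by
    simp only [dotInt, AddSubgroup.coe_sub, Pi.sub_apply, sub_mul, Finset.sum_sub_distrib]
  rw [h2, h1]
  simp

/-- The kernel of the action on `u^⊥ / (⟨u⟩ + 2Λ)`. -/
def KerU : Subgroup Co0 where
  carrier := {g | g • uL = uL ∧ ∀ x : L, Perp x → InM (g • x - x)}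
  one_mem' := ⟨rfl, fun x _ => by
    have : (1 : Co0) • x - x = 0 := by
      rw [one_smul, sub_self]
    rw [this]
    exact InM.zero⟩
  mul_mem' := by
    rintro g h ⟨hg, hg2⟩ ⟨hh, hh2⟩
    refine ⟨by rw [mul_smul', hh, hg], fun x hx => ?_⟩
    have e1 : (g * h) • x - x = (g • (h • x) - h • x) + (h • x - x) := by
      rw [mul_smul']
      abel
    rw [e1]
    exact (hg2 _ (hx.smul hh)).add (hh2 x hx)
  inv_mem' := by
    rintro g ⟨hg, hg2⟩
    have hg' : g⁻¹ • uL = uL := by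
      conv_lhs => rw [← hg]
      rw [inv_smul_smul]
    refine ⟨hg', fun x hx => ?_⟩
    have e1 : g⁻¹ • x - x = -(g⁻¹ • (g • x - x)) := by
      rw [Leech.Lat.smul_sub, inv_smul_smul]
      abel
    rw [e1]
    exact ((hg2 x hx).smul hg').neg

theorem mem_KerU {g : Co0} : g ∈ KerU ↔ g • uL = uL ∧ ∀ x : L, Perp x → InM (g • x - x) := Iff.rfl

theorem KerU_pow_four {g : Co0} (hg : g ∈ KerU) : g ^ 4 = 1 := by
  obtain ⟨hg1, hg2⟩ := hg
  have hc : g ^ 4 ∈ Subgroup.center Co0 := by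
    apply Cfsg.Agent.Lib.Leech.Module.mem_center_of_trivial
    intro y
    have h1 := hg2 _ (perp_sub g hg1 y)
    -- the third difference
    obtain ⟨w', hw'⟩ : ∃ w' : L, g • (g • (g • y - y) - (g • y - y)) - (g • (g • y - y) - (g • y - y)) = w' + w' := by
      rcases h1 with ⟨w, hw⟩ | ⟨w, hw⟩
      · refine ⟨g • w - w, ?_⟩
        rw [hw, Leech.Lat.smul_add]
        abel
      · refine ⟨g • w - w, ?_⟩
        rw [hw, Leech.Lat.smul_add, Leech.Lat.smul_add, hg1]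
        abel
    set a1 := g • y with ha1
    set a2 := g • a1 with ha2
    set a3 := g • a2 with ha3
    set a4 := g • a3 with ha4
    have h4 : g ^ 4 • y = a4 := by
      rw [show g ^ 4 = g * (g * (g * g)) by simp [pow_succ, mul_assoc], mul_smul', mul_smul', mul_smul']
    have hw2 : a3 - a2 - (a2 - a1) - (a2 - a1 - (a1 - y)) = w' + w' := by
      rw [← hw']
      simp only [Leech.Lat.smul_sub, ← ha1, ← ha2, ← ha3]
    have hw3 : a4 - a3 - (a3 - a2) - (a3 - a2 - (a2 - a1)) - (a3 - a2 - (a2 - a1) - (a2 - a1 - (a1 - y))) =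
        g • w' + g • w' - (w' + w') := by
      rw [← Leech.Lat.smul_add, ← hw2]
      simp only [Leech.Lat.smul_sub, ← ha1, ← ha2, ← ha3, ← ha4]
    refine ⟨(g • w' - w') + (2 • a3 - 3 • a2 + 2 • a1 - y), ?_⟩
    have key : a4 - y = ((g • w' - w') + (2 • a3 - 3 • a2 + 2 • a1 - y)) +
        ((g • w' - w') + (2 • a3 - 3 • a2 + 2 • a1 - y)) := by
      have e : a4 = (a4 - a3 - (a3 - a2) - (a3 - a2 - (a2 - a1)) - (a3 - a2 - (a2 - a1) - (a2 - a1 - (a1 - y)))) +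
          (4 • a3 - 6 • a2 + 4 • a1 - y) := by
        abel
      rw [hw3] at e
      rw [e]
      abel
    rw [h4]
    have := congrArg Subtype.val key
    simp only [AddSubgroup.coe_sub, AddSubgroup.coe_add] at this ⊢
    rw [two_nsmul]
    simpa using this
  rcases Cfsg.Agent.Lib.Leech.Center.mem_center_iff.mp hc with h | h
  · exact h
  · exfalso
    have h1 : g ^ 4 • uL = uL := by
      rw [show g ^ 4 = g * (g * (g * g)) by simp [pow_succ, mul_assoc], mul_smul', mul_smul', mul_smul', hg1, hg1, hg1, hg1]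
    rw [h, negG_smul'] at h1
    have h2 : (uL : GolayPt → ℤ) none = 4 := by
      show Spor.vecU none = 4
      decide +kernel
    have h3 := congrFun (congrArg Subtype.val h1) none
    simp only [AddSubgroup.coe_neg, Pi.neg_apply] at h3
    rw [h2] at h3
    norm_num at h3

/-- **`Co₂` is faithful on `u^⊥ / (⟨u⟩ + 2Λ)`.** -/
theorem KerU_eq_bot : KerU = ⊥ := by
  refine eq_bot_of_norm32 (v := uL) sqNorm_uL (fun g hg => hg.1) ?_ ?_
  · rintro ⟨g, hg⟩
    refine ⟨2, Subtype.ext ?_⟩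
    show g ^ (2 ^ 2) = 1
    exact KerU_pow_four hg
  · intro l hl g hg
    have hl1 : l • uL = uL := hl
    have hl2 : l⁻¹ • uL = uL := by
      conv_lhs => rw [← hl1]
      rw [inv_smul_smul]
    refine ⟨?_, fun x hx => ?_⟩
    · rw [mul_smul', mul_smul', hl2, hg.1, hl1]
    · have e1 : (l * g * l⁻¹) • x - x = l • (g • (l⁻¹ • x) - l⁻¹ • x) := by
        rw [Leech.Lat.smul_sub, smul_smul, smul_smul, smul_inv_smul]
      rw [e1]
      exact (hg.2 _ (hx.smul hl2)).smul hl1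

/-! ### The commutator form -/

section Form

variable {G : Type*} [Group G] {z : G} {Q : Subgroup (Subgroup.centralizer ({z} : Set G))} [Q.Normal]
  {e : (Subgroup.centralizer ({z} : Set G)) ⧸ Q ≃* Spor.Co1} {ψ : leechLattice → Q ⧸ Subgroup.center Q}
  [Finite G]

/-- The commutator form. -/
theorem comm_eq_one_iff (hE : IsExtraspecial 2 Q) (hψ : IsLeechModTwoIso Q e ψ) {v w : L} {q r : Q}
    (hv : ψ v = QuotientGroup.mk q) (hw : ψ w = QuotientGroup.mk r) :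
    ⁅r, q⁆ = 1 ↔ (16 : ℤ) ∣ dotInt (v : GolayPt → ℤ) (w : GolayPt → ℤ) := by
  have hadd : ψ (v + w) = QuotientGroup.mk (q * r) := by
    rw [hψ.1, hv, hw]
    rfl
  have h1 := sqChar_mul hE q r
  rw [← Qf_of_eq hE hadd, ← Qf_of_eq hE hv, ← Qf_of_eq hE hw, Qf_spec hE hψ, Qf_spec hE hψ, Qf_spec hE hψ] at h1
  have h2 := Cfsg.Agent.Lib.Leech.Quad.q0_add v w
  unfold Cfsg.Agent.Lib.Leech.Quad.q0 at h2
  rw [h2] at h1
  have h3 : ch ⁅r, q⁆ = ((Cfsg.Agent.Lib.Leech.Quad.d0 v w : ℤ) : ZMod 2) := by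
    generalize ch ⁅r, q⁆ = a at h1 ⊢
    generalize ((Cfsg.Agent.Lib.Leech.Quad.d0 v w : ℤ) : ZMod 2) = b at h1 ⊢
    generalize ((sqNorm (v : GolayPt → ℤ) / 16 : ℤ) : ZMod 2) = c at h1
    generalize ((sqNorm (w : GolayPt → ℤ) / 16 : ℤ) : ZMod 2) = d at h1
    revert a b c d
    decide
  rw [← ch_eq_zero, h3, ZMod.intCast_zmod_eq_zero_iff_dvd]
  obtain ⟨c, hc⟩ := Cfsg.Agent.Lib.Leech.Even.dvd_dotInt (v : GolayPt → ℤ) (w : GolayPt → ℤ) v.2 w.2
  unfold Cfsg.Agent.Lib.Leech.Quad.d0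
  rw [hc, Int.mul_ediv_cancel_left _ (by norm_num : (8 : ℤ) ≠ 0)]
  push_cast
  constructor
  · rintro ⟨d, rfl⟩
    exact ⟨d, by ring⟩
  · rintro ⟨d, hd⟩
    exact ⟨d, by omega⟩

end Form

end Cfsg.Agent.Lib.Monster.BabyLat
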