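import Cfsg.Agent.S5552
import Cfsg.Agent.Lib.PGroups.Special
import Cfsg.Agent.Lib.Leech.Even
import Cfsg.Prelude.Def_MonsterType

/-!
# The quadratic form on `Q/Z(Q)` in a group of Monster type

For `Q` extraspecial with `Q/Z(Q)` identified with `Λ/2Λ`, the squaring map of `Q` is a `Co₀`-invariant
quadratic form, so it is `sqNorm v / 16` modulo 2 (by the uniqueness statement S5552).
-/

set_option autoImplicit false
set_option linter.unusedSectionVars false

open Cfsg

namespace Cfsg.Agent.Lib.Monster.Form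

open Subgroup Cfsg.Agent.Lib.PGroups.Special Cfsg.Agent.Lib.PGroups.ClassTwo
open scoped commutatorElement

section Abstract

variable {P : Type*} [Group P]

open Classical in
/-- Indicator of being non-trivial. -/
noncomputable def ch (w : P) : ZMod 2 := if w = 1 then 0 else 1

/-- The squaring character. -/
noncomputable def sqChar (x : P) : ZMod 2 := ch (x ^ 2)

theorem ch_eq_zero {w : P} : ch w = 0 ↔ w = 1 := by
  unfold ch; split_ifs with h <;> simp [h]

theorem ch_one : ch (1 : P) = 0 := ch_eq_zero.mpr rfl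

theorem sqChar_eq_zero {x : P} : sqChar x = 0 ↔ x ^ 2 = 1 := ch_eq_zero

theorem sqChar_congr {Q' : Type*} [Group Q'] {a : P} {b : Q'} (h : a ^ 2 = 1 ↔ b ^ 2 = 1) :
    sqChar a = sqChar b := by
  unfold sqChar ch
  by_cases h1 : a ^ 2 = 1
  · rw [if_pos h1, if_pos (h.mp h1)]
  · rw [if_neg h1, if_neg (fun h2 => h1 (h.mpr h2))]

theorem center_unique (hcard : Nat.card (center P) = 2) {a b : P} (ha : a ∈ center P)
    (hb : b ∈ center P) (ha1 : a ≠ 1) (hb1 : b ≠ 1) : a = b := by
  obtain ⟨y, -, hy⟩ := (Nat.card_eq_two_iff' (1 : center P)).mp hcard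
  have h1 := hy ⟨a, ha⟩ (by simpa [Subtype.ext_iff] using ha1)
  have h2 := hy ⟨b, hb⟩ (by simpa [Subtype.ext_iff] using hb1)
  have := h1.trans h2.symm
  simpa using congrArg Subtype.val this

theorem ch_mul (hcard : Nat.card (center P) = 2) (hp : ∀ w ∈ center P, w ^ 2 = 1) {a b : P}
    (ha : a ∈ center P) (hb : b ∈ center P) : ch (a * b) = ch a + ch b := by
  by_cases ha1 : a = 1
  · subst ha1; simp [ch_one]
  by_cases hb1 : b = 1
  · subst hb1; simp [ch_one]
  have hab := center_unique hcard ha hb ha1 hb1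
  subst hab
  have h2 : a * a = 1 := by rw [← sq]; exact hp a ha
  rw [h2, ch_one]
  have : ch a = 1 := by unfold ch; rw [if_neg ha1]
  rw [this]; rfl

theorem sq_mul (hc : ∀ a b : P, ⁅a, b⁆ ∈ center P) (x y : P) :
    (x * y) ^ 2 = x ^ 2 * y ^ 2 * ⁅y, x⁆ := by
  have h1 : y * x = ⁅y, x⁆ * (x * y) := by
    simp [commutatorElement_def]
  have hcc := mem_center_iff.mp (hc y x)
  generalize ⁅y, x⁆ = c at *
  calc (x * y) ^ 2 = x * (y * x) * y := by simp only [sq, mul_assoc]
    _ = x * (c * (x * y)) * y := by rw [h1]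
    _ = (x * c) * (x * y) * y := by simp only [mul_assoc]
    _ = (c * x) * (x * y) * y := by rw [hcc x]
    _ = c * (x ^ 2 * y ^ 2) := by simp only [sq, mul_assoc]
    _ = x ^ 2 * y ^ 2 * c := (hcc _).symm

/-- An abstract extraspecial 2-group. -/
theorem center_sq (h : IsExtraspecial 2 P) [Finite P] {w : P} (hw : w ∈ center P) : w ^ 2 = 1 := by
  have := Fact.mk Nat.prime_two
  exact IsSpecial.center_pow h.1 w hw

theorem sqChar_mul (h : IsExtraspecial 2 P) [Finite P] (x y : P) :
    sqChar (x * y) = sqChar x + sqChar y + ch ⁅y, x⁆ := by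
  have := Fact.mk Nat.prime_two
  have hc := IsSpecial.comm_mem h.1
  have hp := fun w (hw : w ∈ center P) => center_sq h hw
  have hs := IsSpecial.pow_mem h.1
  unfold sqChar
  rw [sq_mul hc, ch_mul h.2 hp (mul_mem (hs x) (hs y)) (hc y x), ch_mul h.2 hp (hs x) (hs y)]

theorem ch_comm_mul_right (h : IsExtraspecial 2 P) [Finite P] (t x y : P) :
    ch ⁅t, x * y⁆ = ch ⁅t, x⁆ + ch ⁅t, y⁆ := by
  have := Fact.mk Nat.prime_two
  have hc := IsSpecial.comm_mem h.1
  have hp := fun w (hw : w ∈ center P) => center_sq h hw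
  rw [comm_mul_right hc, ch_mul h.2 hp (hc t x) (hc t y)]

theorem sqChar_quad (h : IsExtraspecial 2 P) [Finite P] (x y t : P) :
    sqChar (x * y * t) + sqChar x + sqChar y + sqChar t
      = sqChar (x * y) + sqChar (x * t) + sqChar (y * t) := by
  rw [sqChar_mul h (x * y) t, sqChar_mul h x t, sqChar_mul h y t, ch_comm_mul_right h]
  generalize sqChar (x * y) = a
  generalize sqChar x = b
  generalize sqChar y = c
  generalize sqChar t = d
  generalize ch ⁅t, x⁆ = e
  generalize ch ⁅t, y⁆ = f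
  revert a b c d e f
  decide

theorem sqChar_mul_center (h : IsExtraspecial 2 P) [Finite P] (x : P) {c : P} (hc : c ∈ center P) :
    sqChar (x * c) = sqChar x := by
  have h0 : sqChar c = 0 := sqChar_eq_zero.mpr (center_sq h hc)
  have h1 : ⁅c, x⁆ = 1 := by
    rw [commutatorElement_eq_one_iff_mul_comm]
    exact mem_center_iff.mp hc x |>.symm
  rw [sqChar_mul h, h0, h1, ch_one]; simp

theorem not_all_sq (h : IsExtraspecial 2 P) [Finite P] : ¬ ∀ x : P, x ^ 2 = 1 := by
  intro hall
  have hcomm : ∀ a b : P, a * b = b * a := by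
    intro a b
    have h1 := hall (a * b)
    have h2 := hall a
    have h3 := hall b
    rw [sq] at h1 h2 h3
    calc a * b = a * (a * b * (a * b)) * b := by rw [h1]; simp
      _ = (a * a) * (b * a) * (b * b) := by group
      _ = b * a := by rw [h2, h3]; simp
  have hbot : commutator P = ⊥ := by
    rw [commutator_def, eq_bot_iff, commutator_le]
    intro a _ b _
    rw [mem_bot, commutatorElement_eq_one_iff_mul_comm]
    exact hcomm a b
  have hc : center P = ⊥ := by rw [← h.1.2.2, hbot]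
  have h2 := h.2
  rw [hc] at h2
  simp at h2

end Abstract

section Lattice

variable {G : Type*} [Group G] {z : G} {Q : Subgroup (Subgroup.centralizer ({z} : Set G))} [Q.Normal]
  {e : (Subgroup.centralizer ({z} : Set G)) ⧸ Q ≃* Spor.Co1} {ψ : leechLattice → Q ⧸ Subgroup.center Q}

/-- The form on the lattice. -/
noncomputable def Qf (ψ : leechLattice → Q ⧸ Subgroup.center Q) (v : leechLattice) : ZMod 2 :=
  sqChar ((ψ v).out)

variable [Finite G]

theorem Qf_of_eq (hE : IsExtraspecial 2 Q) {v : leechLattice} {q : Q} (hv : ψ v = QuotientGroup.mk q) :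
    Qf ψ v = sqChar q := by
  unfold Qf
  have h1 : (QuotientGroup.mk ((ψ v).out) : Q ⧸ Subgroup.center Q) = QuotientGroup.mk q := by
    rw [← hv]; exact QuotientGroup.out_eq' _
  have h2 := QuotientGroup.eq.mp h1
  have h3 : q = (ψ v).out * (((ψ v).out)⁻¹ * q) := by group
  rw [h3, sqChar_mul_center hE _ h2]

theorem exists_lift (v : leechLattice) (ψ : leechLattice → Q ⧸ Subgroup.center Q) :
    ∃ q : Q, ψ v = QuotientGroup.mk q := by
  obtain ⟨q, hq⟩ := QuotientGroup.mk_surjective (ψ v)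
  exact ⟨q, hq.symm⟩

theorem Qf_spec (hE : IsExtraspecial 2 Q) (hψ : IsLeechModTwoIso Q e ψ) (v : leechLattice) :
    Qf ψ v = ((sqNorm (v : GolayPt → ℤ) / 16 : ℤ) : ZMod 2) := by
  obtain ⟨hadd, hsurj, hker, hconj⟩ := hψ
  refine Cfsg.Agent.S5552.result (Qf ψ) ?_ ?_ ?_ ?_ v
  · intro v w
    have h1 : ψ (v + (w + w)) = ψ v := by
      rw [hadd, (hker (w + w)).mpr ⟨w, rfl⟩, mul_one]
    unfold Qf; rw [h1]
  · intro u v w
    obtain ⟨x, hx⟩ := exists_lift u ψ
    obtain ⟨y, hy⟩ := exists_lift v ψ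
    obtain ⟨t, ht⟩ := exists_lift w ψ
    have hxy : ψ (u + v) = QuotientGroup.mk (x * y) := by rw [hadd, hx, hy]; rfl
    have hxt : ψ (u + w) = QuotientGroup.mk (x * t) := by rw [hadd, hx, ht]; rfl
    have hyt : ψ (v + w) = QuotientGroup.mk (y * t) := by rw [hadd, hy, ht]; rfl
    have hxyt : ψ (u + v + w) = QuotientGroup.mk (x * y * t) := by rw [hadd, hxy, ht]; rfl
    rw [Qf_of_eq hE hx, Qf_of_eq hE hy, Qf_of_eq hE ht, Qf_of_eq hE hxy, Qf_of_eq hE hxt,
      Qf_of_eq hE hyt, Qf_of_eq hE hxyt]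
    exact sqChar_quad hE x y t
  · intro g v
    obtain ⟨h, hh⟩ := QuotientGroup.mk_surjective (e.symm (QuotientGroup.mk g))
    have hg : (QuotientGroup.mk g : Spor.Co1) = e (QuotientGroup.mk h) := by
      rw [hh]; simp
    obtain ⟨q, hq⟩ := exists_lift v ψ
    rw [Qf_of_eq hE (hconj h g hg v q hq), Qf_of_eq hE hq]
    apply sqChar_congr
    have e1 : (((⟨h * (q : Subgroup.centralizer ({z} : Set G)) * h⁻¹, (inferInstance : Q.Normal).conj_mem (q : Subgroup.centralizer ({z} : Set G)) q.2 h⟩ : Q) ^ 2 : Q) : Subgroup.centralizer ({z} : Set G))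
        = h * ((q : Subgroup.centralizer ({z} : Set G)) ^ 2) * h⁻¹ := by
      show (h * (q : Subgroup.centralizer ({z} : Set G)) * h⁻¹) ^ 2 = _
      rw [conj_pow]
    constructor
    · intro h2
      have h3 := congrArg Subtype.val h2
      rw [e1] at h3
      apply Subtype.ext
      show (q : Subgroup.centralizer ({z} : Set G)) ^ 2 = 1
      have h4 : h⁻¹ * (h * ((q : Subgroup.centralizer ({z} : Set G)) ^ 2) * h⁻¹) * h = h⁻¹ * 1 * h := by
        rw [h3]; rfl
      simpa [mul_assoc] using h4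
    · intro h2
      apply Subtype.ext
      rw [e1]
      have h3 : (q : Subgroup.centralizer ({z} : Set G)) ^ 2 = 1 := congrArg Subtype.val h2
      rw [h3]; simp
  · by_contra hall
    push Not at hall
    apply not_all_sq hE
    intro x
    obtain ⟨v, hv⟩ := hsurj (QuotientGroup.mk x)
    have := hall v
    rw [Qf_of_eq hE hv] at this
    exact sqChar_eq_zero.mp this

/-- **The squaring form**: `q² = 1` iff `sqNorm v / 16` is even, `ψ v` the class of `q`. -/
theorem sq_eq_one_iff (hE : IsExtraspecial 2 Q) (hψ : IsLeechModTwoIso Q e ψ) {v : leechLattice} {q : Q}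
    (hv : ψ v = QuotientGroup.mk q) : q ^ 2 = 1 ↔ (32 : ℤ) ∣ sqNorm (v : GolayPt → ℤ) := by
  rw [← sqChar_eq_zero, ← Qf_of_eq hE hv, Qf_spec hE hψ]
  obtain ⟨c, hc⟩ := Cfsg.Agent.Lib.Leech.Even.dvd_sqNorm (v : GolayPt → ℤ) v.2
  rw [hc, Int.mul_ediv_cancel_left _ (by norm_num : (16 : ℤ) ≠ 0), ZMod.intCast_zmod_eq_zero_iff_dvd]
  push_cast
  constructor
  · rintro ⟨d, rfl⟩; exact ⟨d, by ring⟩
  · rintro ⟨d, hd⟩; exact ⟨d, by omega⟩

end Lattice

end Cfsg.Agent.Lib.Monster.Form
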