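import Cfsg.Agent.Lib.Monster.Local

/-!
# The image of the conjugate of `Q` in the first Conway group
-/

set_option autoImplicit false
set_option linter.unusedSectionVars false
set_option linter.unusedVariables false

open Cfsg

namespace Cfsg.Agent.Lib.Monster.That

open Subgroup Cfsg.Agent.Lib.PGroups.Special Cfsg.Agent.Lib.PGroups.ClassTwo
  Cfsg.Agent.Lib.Monster.Form Cfsg.Agent.Lib.Monster.Local
  Cfsg.Agent.Lib.Leech.Lat Cfsg.Agent.Lib.Leech.Center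
open scoped commutatorElement

variable {G : Type*} [Group G] [Finite G] {z : G} {Q : Subgroup (Cz z)} [Q.Normal]
  {e : (Cz z) ⧸ Q ≃* Spor.Co1} {ψ : leechLattice → Q ⧸ center Q}

/-- The preimage in `Co0` of the image of `Q^g ∩ C` in `C/Q`. -/
def ThatG (Q : Subgroup (Cz z)) [Q.Normal] (e : (Cz z) ⧸ Q ≃* Spor.Co1) (g : G) : Subgroup Co0 :=
  ((((Q1 Q g).subgroupOf (Cz z)).map (QuotientGroup.mk' Q)).map e.toMonoidHom).comap
    (QuotientGroup.mk' (center Co0))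

theorem mem_ThatG {g : G} {γ : Co0} :
    γ ∈ ThatG Q e g ↔ ∃ r : Cz z, (r : G) ∈ Q1 Q g ∧ (QuotientGroup.mk γ : Spor.Co1) = e (QuotientGroup.mk r) := by
  unfold ThatG
  rw [Subgroup.mem_comap, Subgroup.mem_map]
  constructor
  · rintro ⟨x, ⟨r, hr, rfl⟩, hx⟩
    exact ⟨r, hr, hx.symm⟩
  · rintro ⟨r, hr, h⟩
    exact ⟨_, ⟨r, hr, rfl⟩, h.symm⟩

theorem center_eq_of_mk {γ : Co0} (h : (QuotientGroup.mk γ : Spor.Co1) = 1) : γ = 1 ∨ γ = negG :=
  Cfsg.Agent.Lib.Leech.Center.mem_center_iff.mp ((QuotientGroup.eq_one_iff _).mp h)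

theorem mk_negG : (QuotientGroup.mk negG : Spor.Co1) = 1 :=
  (QuotientGroup.eq_one_iff _).mpr negG_mem_center

theorem negG_mem_That {g : G} : negG ∈ ThatG Q e g :=
  mem_ThatG.mpr ⟨1, (Q1 Q g).one_mem, by rw [mk_negG]; simp⟩

/-- Elements of `Q^g` commute with `s`. -/
theorem comm_s (h : MSet z Q e ψ) {g r : G} (hr : r ∈ Q1 Q g) : r * (g * z * g⁻¹) = (g * z * g⁻¹) * r :=
  (h.extra1 g).comm r hr

/-- Elements of `Q^g` have square in `Q`. -/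
theorem sq_mem (h : MSet z Q e ψ) {g : G} (hs : g * z * g⁻¹ ∈ Q0 Q) {r : Cz z} (hr : (r : G) ∈ Q1 Q g) :
    r ^ 2 ∈ Q := by
  have h1 := (h.extra1 g).sq_eq hr
  rcases h1 with h1 | h1
  · have : r ^ 2 = 1 := Subtype.ext h1
    rw [this]; exact Q.one_mem
  · obtain ⟨hs1, hs2⟩ := mem_Q0.mp hs
    have : r ^ 2 = ⟨g * z * g⁻¹, hs1⟩ := Subtype.ext h1
    rw [this]; exact hs2

/-- Commutators of elements of `Q^g` lie in `Q`. -/
theorem comm_mem (h : MSet z Q e ψ) {g : G} (hs : g * z * g⁻¹ ∈ Q0 Q) {r r' : Cz z} (hr : (r : G) ∈ Q1 Q g)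
    (hr' : (r' : G) ∈ Q1 Q g) : ⁅r, r'⁆ ∈ Q := by
  have h1 := (h.extra1 g).comm_eq hr hr'
  rcases h1 with h1 | h1
  · have : ⁅r, r'⁆ = 1 := Subtype.ext h1
    rw [this]; exact Q.one_mem
  · obtain ⟨hs1, hs2⟩ := mem_Q0.mp hs
    have : ⁅r, r'⁆ = ⟨g * z * g⁻¹, hs1⟩ := Subtype.ext h1
    rw [this]; exact hs2

theorem That_sq (h : MSet z Q e ψ) {g : G} (hs : g * z * g⁻¹ ∈ Q0 Q) {γ : Co0} (hγ : γ ∈ ThatG Q e g) :
    γ ^ 2 = 1 ∨ γ ^ 2 = negG := by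
  obtain ⟨r, hr, h1⟩ := mem_ThatG.mp hγ
  apply center_eq_of_mk
  have h2 : (QuotientGroup.mk (r ^ 2) : Cz z ⧸ Q) = 1 := (QuotientGroup.eq_one_iff _).mpr (sq_mem h hs hr)
  have h3 : (QuotientGroup.mk (γ ^ 2) : Spor.Co1) = (QuotientGroup.mk γ) ^ 2 := rfl
  rw [h3, h1, ← map_pow]
  have h4 : (QuotientGroup.mk r : Cz z ⧸ Q) ^ 2 = QuotientGroup.mk (r ^ 2) := rfl
  rw [h4, h2, map_one]

theorem negG_sq : negG ^ 2 = (1 : Co0) := by
  apply ext_smul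
  intro v
  rw [sq, mul_smul', negG_smul', negG_smul', one_smul, neg_neg]

theorem That_isPGroup (h : MSet z Q e ψ) {g : G} (hs : g * z * g⁻¹ ∈ Q0 Q) : IsPGroup 2 (ThatG Q e g) := by
  rintro ⟨γ, hγ⟩
  refine ⟨2, Subtype.ext ?_⟩
  show γ ^ (2 ^ 2) = 1
  have e1 : γ ^ (2 ^ 2) = (γ ^ 2) ^ 2 := by rw [← pow_mul]; norm_num
  rw [e1]
  rcases That_sq h hs hγ with h1 | h1
  · rw [h1]; simp
  · rw [h1]; exact negG_sq

/-- The class of the vector is preserved. -/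
theorem That_psi (h : MSet z Q e ψ) {g : G} {γ : Co0} (hγ : γ ∈ ThatG Q e g) {v : leechLattice} {a : Q}
    (ha : ((a : Cz z) : G) = g * z * g⁻¹) (hv : ψ v = QuotientGroup.mk a) : ψ (γ • v) = ψ v := by
  obtain ⟨r, hr, h1⟩ := mem_ThatG.mp hγ
  have h2 := h.hψ.2.2.2 r γ h1 v a hv
  rw [h2, hv]
  congr 1
  apply Subtype.ext
  apply Subtype.ext
  show (r : G) * ((a : Cz z) : G) * (r : G)⁻¹ = _
  rw [ha, comm_s h hr]
  simp

/-- Centralizers of `s` normalize the conjugate of `Q`. -/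
theorem conj_mem_Q1 {g c x : G} (hc : c * (g * z * g⁻¹) * c⁻¹ = g * z * g⁻¹) (hx : x ∈ Q1 Q g) :
    c * x * c⁻¹ ∈ Q1 Q g := by
  rw [mem_Q1] at hx ⊢
  obtain ⟨hx1, hx2⟩ := mem_Q0.mp hx
  have hk : g⁻¹ * c * g ∈ Cz z := by
    rw [mem_Cz]
    have h1 : c * (g * z * g⁻¹) = (g * z * g⁻¹) * c := by
      calc c * (g * z * g⁻¹) = c * (g * z * g⁻¹) * c⁻¹ * c := by group
        _ = (g * z * g⁻¹) * c := by rw [hc]
    calc g⁻¹ * c * g * z = g⁻¹ * (c * (g * z * g⁻¹)) * g := by group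
      _ = g⁻¹ * ((g * z * g⁻¹) * c) * g := by rw [h1]
      _ = z * (g⁻¹ * c * g) := by group
  have h2 := (inferInstance : Q.Normal).conj_mem _ hx2 ⟨_, hk⟩
  have h3 := coe_mem_Q0 h2
  have e1 : g⁻¹ * (c * x * c⁻¹) * g =
      (g⁻¹ * c * g) * (g⁻¹ * x * g) * (g⁻¹ * c * g)⁻¹ := by group
  rw [e1]
  exact h3

/-- The normalizing property. -/
theorem That_conj (h : MSet z Q e ψ) {g : G} {l γ : Co0} (hγ : γ ∈ ThatG Q e g) {v : leechLattice} {a : Q}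
    (ha : ((a : Cz z) : G) = g * z * g⁻¹) (hnc : a ∉ center Q) (hv : ψ v = QuotientGroup.mk a)
    (hl : ψ (l • v) = ψ v) : l * γ * l⁻¹ ∈ ThatG Q e g := by
  obtain ⟨r, hr, h1⟩ := mem_ThatG.mp hγ
  obtain ⟨c, hc, hca⟩ := h.exists_conj_of_smul l hv (hl.trans hv) hnc
  refine mem_ThatG.mpr ⟨c * r * c⁻¹, ?_, ?_⟩
  · apply conj_mem_Q1 _ hr
    rw [← ha]
    exact congrArg Subtype.val hca
  · have e1 : (QuotientGroup.mk (l * γ * l⁻¹) : Spor.Co1) =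
        (QuotientGroup.mk l) * (QuotientGroup.mk γ) * (QuotientGroup.mk l)⁻¹ := rfl
    have e2 : (QuotientGroup.mk (c * r * c⁻¹) : Cz z ⧸ Q) =
        (QuotientGroup.mk c) * (QuotientGroup.mk r) * (QuotientGroup.mk c)⁻¹ := rfl
    rw [e1, e2, hc, h1, map_mul, map_mul, map_inv]

/-- `Q^g ∩ C` is not in `Q`. -/
theorem exists_not_center (h : MSet z Q e ψ) {g : G} (hs : g * z * g⁻¹ ∈ Q0 Q) (hne : g * z * g⁻¹ ≠ z) :
    ∃ γ ∈ ThatG Q e g, γ ∉ center Co0 := by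
  obtain ⟨r, hr, hrz, hrQ⟩ := exists_not_mem h.extra0 (h.extra1 g) hs (h.z_mem_Q1 hs hne) hne
    (by rw [h.card_Q0, h.card_Q1]) (by rw [h.card_Q0]; norm_num)
  have hrC : r ∈ Cz z := mem_Cz.mpr hrz
  obtain ⟨γ, hγ⟩ := QuotientGroup.mk_surjective (e (QuotientGroup.mk (⟨r, hrC⟩ : Cz z)))
  refine ⟨γ, mem_ThatG.mpr ⟨⟨r, hrC⟩, hr, hγ⟩, ?_⟩
  intro hc
  have h1 : (QuotientGroup.mk γ : Spor.Co1) = 1 := (QuotientGroup.eq_one_iff _).mpr hc
  rw [hγ] at h1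
  have h2 : (QuotientGroup.mk (⟨r, hrC⟩ : Cz z) : Cz z ⧸ Q) = 1 := by
    simpa using h1
  exact hrQ (mem_Q0.mpr ⟨hrC, (QuotientGroup.eq_one_iff _).mp h2⟩)

/-- Classes modulo twice the lattice. -/
theorem psi_eq_iff (h : MSet z Q e ψ) {x y : leechLattice} :
    ψ x = ψ y ↔ ∃ w ∈ leechLattice, (x : Cfsg.GolayPt → ℤ) - y = (2 : ℕ) • w := by
  obtain ⟨hadd, -, hker, -⟩ := h.hψ
  constructor
  · intro h1
    have h2 : ψ (x - y) * ψ y = ψ y := by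
      rw [← hadd, sub_add_cancel, h1]
    have h3 : ψ (x - y) = 1 := by simpa using h2
    obtain ⟨w, hw⟩ := (hker _).mp h3
    refine ⟨w, w.2, ?_⟩
    have h4 := congrArg Subtype.val hw
    simp only [AddSubgroup.coe_sub, AddSubgroup.coe_add] at h4
    rw [h4, two_nsmul]
  · rintro ⟨w, hw, h1⟩
    have h2 : x - y = (⟨w, hw⟩ : leechLattice) + ⟨w, hw⟩ := by
      apply Subtype.ext
      simp only [AddSubgroup.coe_sub, AddSubgroup.coe_add]
      rw [h1, two_nsmul]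
    have h3 : ψ (x - y) = 1 := (hker _).mpr ⟨_, h2⟩
    have h4 : ψ (x - y) * ψ y = ψ x := by
      rw [← hadd, sub_add_cancel]
    rw [← h4, h3, one_mul]

/-- **Conjugates of `z` in `Q` do not have type 2.** -/
theorem not_norm32 (h : MSet z Q e ψ) {g : G} (hs : g * z * g⁻¹ ∈ Q0 Q) (hne : g * z * g⁻¹ ≠ z) {a : Q}
    (ha : ((a : Cz z) : G) = g * z * g⁻¹) {v : leechLattice} (hv : ψ v = QuotientGroup.mk a) :
    Cfsg.sqNorm (v : Cfsg.GolayPt → ℤ) ≠ 32 := by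
  intro hn
  have hnc : a ∉ center Q := by
    intro hc
    rcases (h.mem_center_iff a).mp hc with h1 | h1
    · apply h.z_ne_one
      have h2 : g * z * g⁻¹ = 1 := by rw [← ha, h1]; rfl
      have h4 : g⁻¹ * (g * z * g⁻¹) * g = g⁻¹ * 1 * g := by rw [h2]
      simpa [mul_assoc] using h4
    · apply hne
      rw [← ha, h1]
      rfl
  have hTP := That_isPGroup h hs
  set T' : Subgroup Co0 := ThatG Q e g ⊓ MulAction.stabilizer Co0 v with hT'
  have hT2 : IsPGroup 2 T' :=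
    IsPGroup.to_le hTP inf_le_left
  have hbot : T' = ⊥ := by
    refine Cfsg.Agent.Lib.Monster.Co2Core.eq_bot_of_norm32 hn inf_le_right hT2 ?_
    intro l hl t ht
    refine ⟨That_conj h ht.1 ha hnc hv ?_, ?_⟩
    · have hl' : l • v = v := hl
      rw [hl']
    · exact (MulAction.stabilizer Co0 v).mul_mem ((MulAction.stabilizer Co0 v).mul_mem hl ht.2)
        ((MulAction.stabilizer Co0 v).inv_mem hl)
  obtain ⟨γ, hγ, hγc⟩ := exists_not_center h hs hne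
  have h1 := That_psi h hγ ha hv
  obtain ⟨w, hw, hw2⟩ := (psi_eq_iff h).mp h1
  have hnorm : Cfsg.sqNorm ((γ • v : leechLattice) : Cfsg.GolayPt → ℤ) = 32 := by
    rw [smul_sqNorm, hn]
  by_cases heq : ((γ • v : leechLattice) : Cfsg.GolayPt → ℤ) = v
  · have h2 : γ ∈ T' := ⟨hγ, Subtype.ext heq⟩
    rw [hbot] at h2
    rw [(Subgroup.mem_bot.mp h2)] at hγc
    exact hγc (Subgroup.one_mem _)
  · rcases short_congruent (γ • v).2 v.2 heq (by rw [hnorm]; norm_num) (by rw [hn]; norm_num) ⟨w, hw, hw2⟩ with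
      h2 | h2
    · have h3 : negG * γ ∈ T' := by
        refine ⟨(ThatG Q e g).mul_mem negG_mem_That hγ, ?_⟩
        apply Subtype.ext
        show ((negG • (γ • v) : leechLattice) : Cfsg.GolayPt → ℤ) = v
        rw [negG_smul, h2, neg_neg]
      rw [hbot] at h3
      have h4 : negG * γ = 1 := Subgroup.mem_bot.mp h3
      apply hγc
      have h5 : γ = negG⁻¹ := eq_inv_of_mul_eq_one_right h4
      rw [h5]
      exact Subgroup.inv_mem _ negG_mem_center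
    · rw [hn] at h2
      omega

end Cfsg.Agent.Lib.Monster.That
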